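import Mathlib
import Cfsg.Agent.Lib.Coprime.Complement
import Cfsg.Agent.Lib.Char.Orbital
import Cfsg.Agent.Lib.PGroups.Basic

/-!
# Cosets of a normal `p`-subgroup and the `p`-regular elements in them

* `conj_of_regular`: the `p`-regular elements of `gR` are the `R`-conjugates of a `p`-regular `g`;
* `card_mul_sum_of_regular`: the sum of a class function vanishing at `p`-singular elements over `gR`;
* `fix_of_fix_commutator`: a `p'`-element acting trivially on `Q/Q'` acts trivially on `Q`;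
* `exists_pi`: the permutation character of `Γ` on `Q/Q'`.
-/

set_option autoImplicit false
set_option linter.unusedSectionVars false

namespace Cfsg.Agent.Lib.KO.Group

open Cfsg Cfsg.Agent.Lib.Coprime.SchurZassenhaus Cfsg.Agent.Lib.Coprime.Complement
open Cfsg.Agent.Lib.Coprime.Action
open scoped commutatorElement

universe u

variable {G : Type u} [Group G] [Finite G] {p : ℕ} [hpf : Fact p.Prime]

theorem eq_one_of_mem_of_regular {R : Subgroup G} (hR : IsPGroup p R) {a : G} (ha : a ∈ R)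
    (h : ¬ p ∣ orderOf a) : a = 1 := by
  obtain ⟨k, hk⟩ := hR ⟨a, ha⟩
  have h1 : a ^ p ^ k = 1 := congrArg Subtype.val hk
  have h2 : orderOf a ∣ p ^ k := orderOf_dvd_of_pow_eq_one h1
  obtain ⟨j, -, hj⟩ := (Nat.dvd_prime_pow hpf.out).mp h2
  rcases j with _ | j
  · rw [pow_zero] at hj
    exact orderOf_eq_one_iff.mp hj
  · exact absurd (hj ▸ dvd_pow_self p (Nat.succ_ne_zero j)) h

theorem orderOf_mk_eq_of_regular (R : Subgroup G) [R.Normal] (hR : IsPGroup p R) {a : G}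
    (h : ¬ p ∣ orderOf a) : orderOf ((a : G) : G ⧸ R) = orderOf a := by
  apply Nat.dvd_antisymm
  · exact orderOf_map_dvd (QuotientGroup.mk' R) a
  · have h1 : a ^ orderOf ((a : G) : G ⧸ R) ∈ R := by
      rw [← QuotientGroup.eq_one_iff, QuotientGroup.mk_pow, pow_orderOf_eq_one]
    have h2 : ¬ p ∣ orderOf (a ^ orderOf ((a : G) : G ⧸ R)) := fun h3 =>
      h (h3.trans (orderOf_pow_dvd _))
    exact orderOf_dvd_of_pow_eq_one (eq_one_of_mem_of_regular hR h1 h2)

/-- The `p`-regular elements of `gR` are conjugate to `g` under `R`. -/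
theorem conj_of_regular (R : Subgroup G) [hRn : R.Normal] (hR : IsPGroup p R) {g y : G} (hy : y ∈ R)
    (hg : ¬ p ∣ orderOf g) (hgy : ¬ p ∣ orderOf (g * y)) : ∃ q ∈ R, g * y = q * g * q⁻¹ := by
  have hmk : ((g * y : G) : G ⧸ R) = (g : G ⧸ R) := by
    rw [QuotientGroup.mk_mul, (QuotientGroup.eq_one_iff y).mpr hy, mul_one]
  have hord : orderOf (g * y) = orderOf g := by
    rw [← orderOf_mk_eq_of_regular R hR hgy, ← orderOf_mk_eq_of_regular R hR hg, hmk]
  have hKN : Subgroup.zpowers g ≤ Subgroup.normalizer (R : Set G) :=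
    Subgroup.le_normalizer_iff.mpr fun a _ k hk => hRn.conj_mem k hk a
  have hK₁ : Subgroup.zpowers (g * y) ≤ R ⊔ Subgroup.zpowers g := by
    rw [Subgroup.zpowers_le]
    have h1 : g * y = (g * y * g⁻¹) * g := by group
    rw [h1]
    exact Subgroup.mul_mem_sup (hRn.conj_mem y hy g) (Subgroup.mem_zpowers g)
  have hcard : Nat.card (Subgroup.zpowers (g * y)) = Nat.card (Subgroup.zpowers g) := by
    rw [Nat.card_zpowers, Nat.card_zpowers, hord]
  have hcop : (Nat.card R).Coprime (Nat.card (Subgroup.zpowers g)) := by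
    obtain ⟨n, hn⟩ := IsPGroup.iff_card.mp hR
    rw [hn, Nat.card_zpowers]
    exact Nat.Coprime.pow_left n ((Nat.Prime.coprime_iff_not_dvd hpf.out).mpr hg)
  have hsolv : Group.IsSolvable R ∨ Group.IsSolvable (Subgroup.zpowers g) := by
    left
    have := hR.isNilpotent
    infer_instance
  obtain ⟨n, hn, hconj⟩ := exists_conj_of_le_sup hKN hK₁ hcard hcop hsolv
  refine ⟨n, hn, ?_⟩
  have h1 : n * g * n⁻¹ ∈ Subgroup.zpowers (g * y) := by
    rw [← hconj]
    exact conj_mem_conj_smul n g _ (Subgroup.mem_zpowers g)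
  obtain ⟨k, hk⟩ := h1
  have hk' : (g * y) ^ k = n * g * n⁻¹ := hk
  have h2 : n * g * n⁻¹ * (g * y)⁻¹ ∈ R := by
    rw [← QuotientGroup.eq_one_iff, QuotientGroup.mk_mul, QuotientGroup.mk_inv, hmk, QuotientGroup.mk_mul,
      QuotientGroup.mk_mul, QuotientGroup.mk_inv, (QuotientGroup.eq_one_iff n).mpr hn]
    group
  have h3 : ¬ p ∣ orderOf (n * g * n⁻¹ * (g * y)⁻¹) := by
    intro h4
    apply hgy
    refine h4.trans (orderOf_dvd_of_mem_zpowers ?_)
    rw [← hk']
    exact Subgroup.mul_mem _ (Subgroup.zpow_mem _ (Subgroup.mem_zpowers _) k)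
      (Subgroup.inv_mem _ (Subgroup.mem_zpowers _))
  have h4 := eq_one_of_mem_of_regular hR h2 h3
  exact (mul_inv_eq_one.mp h4).symm

/-- The sum of a class function vanishing at `p`-singular elements over a coset. -/
theorem card_mul_sum_of_regular (R : Subgroup G) [hRn : R.Normal] [Fintype R] (hR : IsPGroup p R)
    (f : G → ℂ) (hf : ∀ x h : G, f (h * x * h⁻¹) = f x) (hfs : ∀ x : G, p ∣ orderOf x → f x = 0)
    {g : G} (hg : ¬ p ∣ orderOf g) :
    (Nat.card ↥(R ⊓ Subgroup.centralizer ({g} : Set G)) : ℂ) * ∑ y : R, f (g * y) =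
      (Nat.card R : ℂ) * f g := by
  classical
  have hmem : ∀ q : R, g⁻¹ * q * g * (q : G)⁻¹ ∈ R := fun q =>
    R.mul_mem (by simpa using hRn.conj_mem q q.2 g⁻¹) (R.inv_mem q.2)
  let φ : R → R := fun q => ⟨g⁻¹ * q * g * (q : G)⁻¹, hmem q⟩
  have hφ : ∀ q : R, g * (φ q : G) = q * g * (q : G)⁻¹ := fun q => by
    simp only [φ]
    group
  have h1 : ∑ q : R, f (g * (φ q : G)) = (Nat.card R : ℂ) * f g := by
    simp only [hφ, hf]
    rw [Finset.sum_const, Finset.card_univ, nsmul_eq_mul, Nat.card_eq_fintype_card]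
  rw [← h1]
  have h2 : ∑ q : R, f (g * (φ q : G)) =
      ∑ y : R, ∑ q ∈ Finset.univ.filter (fun q : R => φ q = y), f (g * (φ q : G)) :=
    (Finset.sum_fiberwise _ _ _).symm
  rw [h2, Finset.mul_sum]
  refine Fintype.sum_congr _ _ fun y => ?_
  have h3 : ∀ q ∈ Finset.univ.filter (fun q : R => φ q = y), f (g * (φ q : G)) = f (g * y) := by
    intro q hq
    rw [(Finset.mem_filter.mp hq).2]
  rw [Finset.sum_congr rfl h3, Finset.sum_const, nsmul_eq_mul]
  by_cases hy : ¬ p ∣ orderOf (g * (y : G))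
  · obtain ⟨q₀, hq₀, he⟩ := conj_of_regular R hR y.2 hg hy
    have hy' : φ ⟨q₀, hq₀⟩ = y := by
      apply Subtype.ext
      show g⁻¹ * q₀ * g * q₀⁻¹ = y
      have h5 : g⁻¹ * q₀ * g * q₀⁻¹ = g⁻¹ * (q₀ * g * q₀⁻¹) := by group
      rw [h5, ← he]
      group
    congr 1
    have hcard : (Finset.univ.filter (fun q : R => φ q = y)).card =
        Nat.card ↥(R ⊓ Subgroup.centralizer ({g} : Set G)) := by
      let e : {q : R // φ q = y} ≃ ↥(R ⊓ Subgroup.centralizer ({g} : Set G)) :=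
        { toFun := fun q => ⟨q₀⁻¹ * q.1.1, by
            refine ⟨R.mul_mem (R.inv_mem hq₀) q.1.2, ?_⟩
            apply Subgroup.mem_centralizer_singleton_iff.mpr
            have h4 := hφ q.1
            rw [q.2] at h4
            have h6 : q₀ * g * q₀⁻¹ = q.1.1 * g * (q.1.1)⁻¹ := he.symm.trans h4
            have h7 : (q₀⁻¹ * q.1.1) * g = q₀⁻¹ * (q.1.1 * g * (q.1.1)⁻¹) * q.1.1 := by group
            rw [h7, ← h6]
            group⟩
          invFun := fun c => ⟨⟨q₀ * c.1, R.mul_mem hq₀ c.2.1⟩, by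
            apply Subtype.ext
            rw [← hy']
            show g⁻¹ * (q₀ * c.1) * g * (q₀ * c.1)⁻¹ = g⁻¹ * q₀ * g * q₀⁻¹
            have h4 : (c.1 : G) * g = g * c.1 :=
              Subgroup.mem_centralizer_singleton_iff.mp c.2.2
            have h5 : g⁻¹ * (q₀ * c.1) * g * (q₀ * c.1)⁻¹ =
                g⁻¹ * q₀ * ((c.1 : G) * g) * (c.1 : G)⁻¹ * q₀⁻¹ := by group
            rw [h5, h4]
            group⟩
          left_inv := fun q => by
            apply Subtype.ext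
            apply Subtype.ext
            simp
          right_inv := fun c => by
            apply Subtype.ext
            simp }
      rw [← Nat.card_congr e, Nat.card_eq_fintype_card, Fintype.card_subtype]
    rw [hcard]
  · push Not at hy
    rw [hfs _ hy, mul_zero, mul_zero]

/-- A `p'`-element acting trivially on `Q/Q'` centralizes `Q`. -/
theorem fix_of_fix_commutator (Q : Subgroup G) [hQn : Q.Normal] (hQ : IsPGroup p Q) {y : G}
    (hy : ¬ p ∣ orderOf y) (hfix : ∀ u ∈ Q, y * u * y⁻¹ * u⁻¹ ∈ ⁅Q, Q⁆) :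
    ∀ u ∈ Q, y * u = u * y := by
  classical
  -- The fixed points of `y` in `Q`, as a subgroup of the type `Q`.
  let C : Subgroup Q := (Subgroup.centralizer ({y} : Set G)).subgroupOf Q
  have hCtop : C ⊔ frattini Q = ⊤ := by
    rw [eq_top_iff]
    rintro ⟨u, hu⟩ -
    have hAK : Subgroup.zpowers y ≤ Subgroup.normalizer (Q : Set G) :=
      Subgroup.le_normalizer_iff.mpr fun a _ k hk => hQn.conj_mem k hk a
    have hcop : (Nat.card (Subgroup.zpowers y)).Coprime (Nat.card Q) := by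
      obtain ⟨n, hn⟩ := IsPGroup.iff_card.mp hQ
      rw [hn, Nat.card_zpowers]
      exact (Nat.Coprime.pow_left n ((Nat.Prime.coprime_iff_not_dvd hpf.out).mpr hy)).symm
    have hsolv : Group.IsSolvable (Subgroup.zpowers y) ∨ Group.IsSolvable Q := by
      right
      have := hQ.isNilpotent
      infer_instance
    have hNK : ⁅Q, Q⁆ ≤ Q := Subgroup.commutator_le_left Q Q
    have hAN : Subgroup.zpowers y ≤ Subgroup.normalizer ((⁅Q, Q⁆ : Subgroup G) : Set G) :=
      Subgroup.le_normalizer_iff.mpr fun a _ k hk => (inferInstance : (⁅Q, Q⁆ : Subgroup G).Normal).conj_mem k hk a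
    have hKN : Q ≤ Subgroup.normalizer ((⁅Q, Q⁆ : Subgroup G) : Set G) :=
      Subgroup.le_normalizer_iff.mpr fun a _ k hk => (inferInstance : (⁅Q, Q⁆ : Subgroup G).Normal).conj_mem k hk a
    have hfix' : ∀ a ∈ Subgroup.zpowers y, a * u * a⁻¹ * u⁻¹ ∈ (⁅Q, Q⁆ : Subgroup G) := by
      -- the action on `Q/Q'` is trivial for the whole cyclic group
      let D : Subgroup G :=
        { carrier := {a | ∀ v ∈ Q, a * v * a⁻¹ * v⁻¹ ∈ (⁅Q, Q⁆ : Subgroup G)}
          one_mem' := fun v _ => by simp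
          mul_mem' := fun {a b} ha hb v hv => by
            have h1 := ha _ (hQn.conj_mem v hv b)
            have h2 := hb v hv
            have h3 : (a * b) * v * (a * b)⁻¹ * v⁻¹ =
                (a * (b * v * b⁻¹) * a⁻¹ * (b * v * b⁻¹)⁻¹) * (b * v * b⁻¹ * v⁻¹) := by group
            rw [h3]
            exact Subgroup.mul_mem _ h1 h2
          inv_mem' := fun {a} ha v hv => by
            have h1 := ha _ (hQn.conj_mem v hv a⁻¹)
            have h2 : a * (a⁻¹ * v * a⁻¹⁻¹) * a⁻¹ * (a⁻¹ * v * a⁻¹⁻¹)⁻¹ = v * (a⁻¹ * v⁻¹ * a) := by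
              group
            rw [h2] at h1
            have h3 : a⁻¹ * v * a⁻¹⁻¹ * v⁻¹ = (v * (a⁻¹ * v⁻¹ * a))⁻¹ := by group
            rw [h3]
            exact Subgroup.inv_mem _ h1 }
      have hyD : y ∈ D := hfix
      intro a ha
      exact (Subgroup.zpowers_le.mpr hyD) ha u hu
    obtain ⟨c, hc, hcu⟩ := exists_fixed_of_fixed_mod (A := Subgroup.zpowers y) (K := Q) ⁅Q, Q⁆ hAK hcop hsolv
      hNK hKN hAN hu hfix'
    have hcmem : c ∈ Q := hc.1
    have hcy : c * y = y * c :=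
      (Subgroup.mem_centralizer_iff.mp hc.2 y (Subgroup.mem_zpowers y)).symm
    have huc : (⟨u, hu⟩ : Q) = ⟨c, hcmem⟩ * (⟨c, hcmem⟩⁻¹ * ⟨u, hu⟩) := by group
    rw [huc]
    refine Subgroup.mul_mem_sup ?_ ?_
    · show c ∈ Subgroup.centralizer ({y} : Set G)
      exact Subgroup.mem_centralizer_singleton_iff.mpr hcy
    · apply Cfsg.Agent.Lib.PGroups.Basic.commutator_le_frattini hQ
      have h1 : c⁻¹ * u ∈ (⁅Q, Q⁆ : Subgroup G) := by
        have h2 := Subgroup.inv_mem _ hcu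
        simpa using h2
      rw [← Subgroup.map_subtype_commutator] at h1
      obtain ⟨w, hw, he⟩ := h1
      have h3 : (⟨c, hcmem⟩⁻¹ * ⟨u, hu⟩ : Q) = w := Subtype.ext he.symm
      rw [h3]
      exact hw
  have hCeq : C = ⊤ := frattini_nongenerating hCtop
  intro u hu
  have h1 : (⟨u, hu⟩ : Q) ∈ C := by rw [hCeq]; trivial
  have h2 : u ∈ Subgroup.centralizer ({y} : Set G) := h1
  exact (Subgroup.mem_centralizer_singleton_iff.mp h2).symm

/-- The elements acting trivially on `Q/Q'`. -/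
def fixD (Q : Subgroup G) [hQn : Q.Normal] : Subgroup G where
  carrier := {a | ∀ v ∈ Q, a * v * a⁻¹ * v⁻¹ ∈ (⁅Q, Q⁆ : Subgroup G)}
  one_mem' := fun v _ => by simp
  mul_mem' := fun {a b} ha hb v hv => by
    have h1 := ha _ (hQn.conj_mem v hv b)
    have h2 := hb v hv
    have h3 : (a * b) * v * (a * b)⁻¹ * v⁻¹ =
        (a * (b * v * b⁻¹) * a⁻¹ * (b * v * b⁻¹)⁻¹) * (b * v * b⁻¹ * v⁻¹) := by group
    rw [h3]
    exact Subgroup.mul_mem _ h1 h2
  inv_mem' := fun {a} ha v hv => by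
    have h1 := ha _ (hQn.conj_mem v hv a⁻¹)
    have h2 : a * (a⁻¹ * v * a⁻¹⁻¹) * a⁻¹ * (a⁻¹ * v * a⁻¹⁻¹)⁻¹ = v * (a⁻¹ * v⁻¹ * a) := by
      group
    rw [h2] at h1
    have h3 : a⁻¹ * v * a⁻¹⁻¹ * v⁻¹ = (v * (a⁻¹ * v⁻¹ * a))⁻¹ := by group
    rw [h3]
    exact Subgroup.inv_mem _ h1

theorem mem_fixD {Q : Subgroup G} [Q.Normal] {a : G} :
    a ∈ fixD Q ↔ ∀ v ∈ Q, a * v * a⁻¹ * v⁻¹ ∈ (⁅Q, Q⁆ : Subgroup G) := Iff.rfl

instance fixD_normal (Q : Subgroup G) [hQn : Q.Normal] : (fixD Q).Normal := by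
  constructor
  intro x hx g v hv
  have h1 := hx _ (hQn.conj_mem v hv g⁻¹)
  have h2 : (g * x * g⁻¹) * v * (g * x * g⁻¹)⁻¹ * v⁻¹ =
      g * (x * (g⁻¹ * v * g⁻¹⁻¹) * x⁻¹ * (g⁻¹ * v * g⁻¹⁻¹)⁻¹) * g⁻¹ := by group
  rw [h2]
  exact (inferInstance : (⁅Q, Q⁆ : Subgroup G).Normal).conj_mem _ h1 g

section Pi

variable (Q : Subgroup G) [hQn : Q.Normal]

/-- The image of `Q` in `G/Q'`. -/
noncomputable abbrev barQ : Subgroup (G ⧸ (⁅Q, Q⁆ : Subgroup G)) :=
  Q.map (QuotientGroup.mk' (⁅Q, Q⁆ : Subgroup G))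

theorem mk_conj_mem (x : G) (a : barQ Q) :
    ((x : G) : G ⧸ (⁅Q, Q⁆ : Subgroup G)) * a * ((x : G) : G ⧸ (⁅Q, Q⁆ : Subgroup G))⁻¹ ∈ barQ Q := by
  obtain ⟨a, u, hu, rfl⟩ := a
  exact ⟨x * u * x⁻¹, hQn.conj_mem u hu x, by simp⟩

/-- `G` acts on the abelian group `Q/Q'` by conjugation. -/
@[reducible] noncomputable def actBar : MulAction G (barQ Q) where
  smul x a := ⟨(x : G ⧸ (⁅Q, Q⁆ : Subgroup G)) * a * (x : G ⧸ (⁅Q, Q⁆ : Subgroup G))⁻¹, mk_conj_mem Q x a⟩
  one_smul a := by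
    apply Subtype.ext
    show ((1 : G) : G ⧸ (⁅Q, Q⁆ : Subgroup G)) * a * ((1 : G) : G ⧸ (⁅Q, Q⁆ : Subgroup G))⁻¹ = a
    simp
  mul_smul x y a := by
    apply Subtype.ext
    show ((x * y : G) : G ⧸ (⁅Q, Q⁆ : Subgroup G)) * a * ((x * y : G) : G ⧸ (⁅Q, Q⁆ : Subgroup G))⁻¹ =
      (x : G ⧸ (⁅Q, Q⁆ : Subgroup G)) * ((y : G ⧸ (⁅Q, Q⁆ : Subgroup G)) * a *
        (y : G ⧸ (⁅Q, Q⁆ : Subgroup G))⁻¹) * (x : G ⧸ (⁅Q, Q⁆ : Subgroup G))⁻¹
    rw [QuotientGroup.mk_mul]
    group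

theorem actBar_coe (x : G) (a : barQ Q) :
    ((actBar Q).smul x a : G ⧸ (⁅Q, Q⁆ : Subgroup G)) =
      (x : G ⧸ (⁅Q, Q⁆ : Subgroup G)) * a * (x : G ⧸ (⁅Q, Q⁆ : Subgroup G))⁻¹ := rfl

theorem barQ_comm (a b : barQ Q) :
    (a : G ⧸ (⁅Q, Q⁆ : Subgroup G)) * b = b * a := by
  obtain ⟨a, u, hu, rfl⟩ := a
  obtain ⟨b, v, hv, rfl⟩ := b
  show ((u : G) : G ⧸ (⁅Q, Q⁆ : Subgroup G)) * (v : G) = (v : G) * (u : G)
  rw [← QuotientGroup.mk_mul, ← QuotientGroup.mk_mul, QuotientGroup.eq]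
  have h1 : (u * v)⁻¹ * (v * u) = ⁅v⁻¹, u⁻¹⁆ := by
    rw [commutatorElement_def]
    group
  rw [h1]
  exact Subgroup.commutator_mem_commutator (Q.inv_mem hv) (Q.inv_mem hu)

/-- The permutation character of `G` on `Q/Q'`. -/
theorem exists_pi [Fintype G] (hQ : IsPGroup p Q) :
    ∃ π : G → ℂ, IsCharacter G π ∧ (∀ x : G, ∀ y ∈ Q, π (y * x) = π x) ∧
      (∀ x : G, (∀ v : G, x * v = v * x) → ∀ w : G, π (x * w) = π w) ∧
      (∀ x : G, π x = π 1 → ∀ u ∈ Q, x * u * x⁻¹ * u⁻¹ ∈ (⁅Q, Q⁆ : Subgroup G)) ∧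
      (∀ g : G, ¬ p ∣ orderOf g →
        π g * (Nat.card ↥((⁅Q, Q⁆ : Subgroup G) ⊓ Subgroup.centralizer ({g} : Set G)) : ℂ) =
          (Nat.card ↥(Q ⊓ Subgroup.centralizer ({g} : Set G)) : ℂ)) := by
  classical
  let _ : MulAction G (barQ Q) := actBar Q
  let _ : Fintype (barQ Q) := Fintype.ofFinite _
  have hsmul : ∀ (x : G) (a : barQ Q), ((x • a : barQ Q) : G ⧸ (⁅Q, Q⁆ : Subgroup G)) =
      (x : G ⧸ (⁅Q, Q⁆ : Subgroup G)) * a * (x : G ⧸ (⁅Q, Q⁆ : Subgroup G))⁻¹ := fun _ _ => rfl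
  have htriv : ∀ y ∈ Q, ∀ a : barQ Q, y • a = a := by
    intro y hy a
    apply Subtype.ext
    rw [hsmul]
    have h1 : ((y : G) : G ⧸ (⁅Q, Q⁆ : Subgroup G)) ∈ barQ Q := ⟨y, hy, rfl⟩
    have h2 := barQ_comm Q ⟨_, h1⟩ a
    simp only at h2
    rw [h2]
    group
  refine ⟨fun g => (Nat.card (MulAction.fixedBy (barQ Q) g) : ℂ),
    Cfsg.Agent.Lib.Char.Orbital.isCharacter_permChar, ?_, ?_, ?_, ?_⟩
  · intro x y hy
    have : MulAction.fixedBy (barQ Q) (y * x) = MulAction.fixedBy (barQ Q) x := by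
      ext a
      simp only [MulAction.mem_fixedBy, mul_smul]
      rw [htriv y hy]
    simp only [this]
  · intro x hx w
    have : MulAction.fixedBy (barQ Q) (x * w) = MulAction.fixedBy (barQ Q) w := by
      ext a
      simp only [MulAction.mem_fixedBy, mul_smul]
      have h1 : ∀ b : barQ Q, x • b = b := by
        intro b
        apply Subtype.ext
        rw [hsmul]
        obtain ⟨b, v, hv, rfl⟩ := b
        show ((x : G) : G ⧸ (⁅Q, Q⁆ : Subgroup G)) * (v : G) * ((x : G) : G ⧸ (⁅Q, Q⁆ : Subgroup G))⁻¹ = (v : G)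
        rw [← QuotientGroup.mk_mul, hx v, QuotientGroup.mk_mul]
        group
      rw [h1]
    simp only [this]
  · intro x hx u hu
    have h1 : Nat.card (MulAction.fixedBy (barQ Q) x) = Nat.card (MulAction.fixedBy (barQ Q) (1 : G)) := by
      have hx' : (Nat.card (MulAction.fixedBy (barQ Q) x) : ℂ) =
        (Nat.card (MulAction.fixedBy (barQ Q) (1 : G)) : ℂ) := hx
      exact_mod_cast hx'
    have h2 : MulAction.fixedBy (barQ Q) (1 : G) = Set.univ := by
      ext a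
      simp
    rw [h2, Nat.card_coe_set_eq, Nat.card_coe_set_eq] at h1
    have h3 : MulAction.fixedBy (barQ Q) x = Set.univ :=
      Set.eq_of_subset_of_ncard_le (Set.subset_univ _) h1.ge
    have h4 : x • (⟨_, ⟨u, hu, rfl⟩⟩ : barQ Q) = ⟨_, ⟨u, hu, rfl⟩⟩ := by
      have : (⟨_, ⟨u, hu, rfl⟩⟩ : barQ Q) ∈ MulAction.fixedBy (barQ Q) x := by
        rw [h3]
        trivial
      exact this
    have h5 := congrArg Subtype.val h4
    rw [hsmul] at h5
    rw [← QuotientGroup.eq_one_iff]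
    simp only [QuotientGroup.mk'_apply] at h5
    rw [QuotientGroup.mk_mul, QuotientGroup.mk_mul, QuotientGroup.mk_mul, QuotientGroup.mk_inv, QuotientGroup.mk_inv, h5]
    group
  · intro g hg
    -- the map from the fixed points of `g` in `Q`
    let T : Subgroup G := Q ⊓ Subgroup.centralizer ({g} : Set G)
    let f : T →* G ⧸ (⁅Q, Q⁆ : Subgroup G) := (QuotientGroup.mk' (⁅Q, Q⁆ : Subgroup G)).comp T.subtype
    have hf : ∀ t : T, f t = ((t : G) : G ⧸ (⁅Q, Q⁆ : Subgroup G)) := fun _ => rfl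
    have hNK : (⁅Q, Q⁆ : Subgroup G) ≤ Q := Subgroup.commutator_le_left Q Q
    have hker : Nat.card f.ker =
        Nat.card ↥((⁅Q, Q⁆ : Subgroup G) ⊓ Subgroup.centralizer ({g} : Set G)) := by
      refine Nat.card_congr
        { toFun := fun t => ⟨t.1.1, ?_, t.1.2.2⟩
          invFun := fun c => ⟨⟨c.1, hNK c.2.1, c.2.2⟩, ?_⟩
          left_inv := fun t => rfl
          right_inv := fun c => rfl }
      · have h1 : f t.1 = 1 := t.2
        rw [hf, QuotientGroup.eq_one_iff] at h1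
        exact h1
      · show f _ = 1
        rw [hf, QuotientGroup.eq_one_iff]
        exact c.2.1
    have hrange : Nat.card f.range = Nat.card (MulAction.fixedBy (barQ Q) g) := by
      refine Nat.card_congr
        { toFun := fun r => ⟨⟨r.1, ?_⟩, ?_⟩
          invFun := fun a => ⟨a.1.1, ?_⟩
          left_inv := fun r => rfl
          right_inv := fun a => rfl }
      · obtain ⟨r, t, rfl⟩ := r
        exact ⟨t.1, t.2.1, rfl⟩
      · obtain ⟨r, t, rfl⟩ := r
        show g • (⟨_, _⟩ : barQ Q) = _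
        apply Subtype.ext
        rw [hsmul]
        simp only [hf]
        have h1 : (t : G) * g = g * t := Subgroup.mem_centralizer_singleton_iff.mp t.2.2
        rw [← QuotientGroup.mk_mul, ← h1, QuotientGroup.mk_mul]
        group
      · obtain ⟨⟨_, u, hu, rfl⟩, ha⟩ := a
        have h1 : g • (⟨_, ⟨u, hu, rfl⟩⟩ : barQ Q) = ⟨_, ⟨u, hu, rfl⟩⟩ := ha
        have h2 := congrArg Subtype.val h1
        rw [hsmul] at h2
        simp only [QuotientGroup.mk'_apply] at h2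
        have hfix : ∀ a ∈ Subgroup.zpowers g, a * u * a⁻¹ * u⁻¹ ∈ (⁅Q, Q⁆ : Subgroup G) := by
          rintro _ ⟨k, rfl⟩
          rw [← QuotientGroup.eq_one_iff]
          have h3 : Commute ((g : G) : G ⧸ (⁅Q, Q⁆ : Subgroup G)) ((u : G) : G ⧸ (⁅Q, Q⁆ : Subgroup G)) :=
            mul_inv_eq_iff_eq_mul.mp h2
          have h4 := h3.zpow_left k
          have h5 : ((fun x : ℤ => g ^ x) k * u * ((fun x : ℤ => g ^ x) k)⁻¹ * u⁻¹ : G) =
              g ^ k * u * (g ^ k)⁻¹ * u⁻¹ := rfl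
          rw [h5]
          simp only [QuotientGroup.mk_mul, QuotientGroup.mk_inv, QuotientGroup.mk_zpow]
          rw [h4.eq]
          group
        have hAK : Subgroup.zpowers g ≤ Subgroup.normalizer (Q : Set G) :=
          Subgroup.le_normalizer_iff.mpr fun a _ k hk => hQn.conj_mem k hk a
        have hcop : (Nat.card (Subgroup.zpowers g)).Coprime (Nat.card Q) := by
          obtain ⟨n, hn⟩ := IsPGroup.iff_card.mp hQ
          rw [hn, Nat.card_zpowers]
          exact (Nat.Coprime.pow_left n ((Nat.Prime.coprime_iff_not_dvd hpf.out).mpr hg)).symm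
        have hsolv : Group.IsSolvable (Subgroup.zpowers g) ∨ Group.IsSolvable Q := by
          right
          have := hQ.isNilpotent
          infer_instance
        have hAN : Subgroup.zpowers g ≤ Subgroup.normalizer ((⁅Q, Q⁆ : Subgroup G) : Set G) :=
          Subgroup.le_normalizer_iff.mpr fun a _ k hk =>
            (inferInstance : (⁅Q, Q⁆ : Subgroup G).Normal).conj_mem k hk a
        have hKN : Q ≤ Subgroup.normalizer ((⁅Q, Q⁆ : Subgroup G) : Set G) :=
          Subgroup.le_normalizer_iff.mpr fun a _ k hk =>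
            (inferInstance : (⁅Q, Q⁆ : Subgroup G).Normal).conj_mem k hk a
        obtain ⟨c, hc, hcu⟩ := exists_fixed_of_fixed_mod (A := Subgroup.zpowers g) (K := Q) ⁅Q, Q⁆
          hAK hcop hsolv hNK hKN hAN hu hfix
        refine ⟨⟨c, hc.1, Subgroup.mem_centralizer_singleton_iff.mpr
          (Subgroup.mem_centralizer_iff.mp hc.2 g (Subgroup.mem_zpowers g)).symm⟩, ?_⟩
        rw [hf]
        exact (QuotientGroup.eq.mpr hcu).symm
    have hcard : Nat.card T = Nat.card f.ker * Nat.card f.range := by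
      rw [← Subgroup.index_ker f, Subgroup.card_mul_index]
    show (Nat.card (MulAction.fixedBy (barQ Q) g) : ℂ) * _ = (Nat.card T : ℂ)
    rw [hcard, ← hker, hrange, mul_comm]
    push_cast
    rfl

end Pi

end Cfsg.Agent.Lib.KO.Group
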