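import Mathlib
import Cfsg.Agent.Lib.KO.Group
import Cfsg.Agent.Lib.Blocks.Central
import Cfsg.Agent.Lib.Char.Degree
import Cfsg.Agent.Lib.Blocks.Heights

/-!
# Sets of irreducible characters whose weighted sum vanishes at `p`-singular elements

`fS S = ∑_{χ ∈ S} χ(1) χ`. The main result `core`: if `T = U ⊔ V` is a set of irreducible characters
closed under the multiplication by the permutation character of `G` on `Q/Q'` and both `fS U` and
`fS V` vanish at `p`-singular elements then `U` or `V` is empty, provided the elements acting trivially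
on `Q/Q'` are "scalar" on the members of `T` with `Q` in their kernel.
-/

set_option autoImplicit false
set_option linter.unusedSectionVars false
set_option linter.style.haveILetI false

namespace Cfsg.Agent.Lib.KO.Core

open Cfsg Module Finset MonoidAlgebra
open Cfsg.Agent.Lib.Char.Basic Cfsg.Agent.Lib.Char.Ortho Cfsg.Agent.Lib.Char.Complete
open Cfsg.Agent.Lib.Blocks.Central Cfsg.Agent.Lib.KO.Group Cfsg.Agent.Lib.Blocks.Heights
open scoped Classical ComplexConjugate

universe u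

variable {G : Type u} [Group G] [Fintype G]

/-- A central element acting on a character. -/
theorem sum_central_mul {χ : G → ℂ} (hχ : IsIrrCharacter G χ) {z : GA G} (hz : IsCentral z) (x : G) :
    ∑ g : G, z.coeff g * χ (g * x) = omega χ z * χ x := by
  have h1 := lin_central_mul hχ hz (single x 1)
  rw [lin_single, one_mul] at h1
  rw [← h1, lin_apply]
  refine Fintype.sum_equiv (Equiv.mulRight x) _ _ fun g => ?_
  simp only [Equiv.coe_mulRight]
  rw [coeff_mul_single_apply, mul_one, mul_inv_cancel_right]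

/-- The average over a normal subgroup. -/
theorem sum_mem_irr {χ : G → ℂ} (hχ : IsIrrCharacter G χ) (R : Subgroup G) [hRn : R.Normal]
    [Fintype R] (x : G) :
    ∑ y : R, χ (x * y) = if (∀ y ∈ R, χ y = χ 1) then (Nat.card R : ℂ) * χ x else 0 := by
  have hcf := isClassFunction_of_isIrrCharacter hχ
  have hcard : (Nat.card R : ℂ) ≠ 0 := Nat.cast_ne_zero.mpr Nat.card_pos.ne'
  let z : GA G := ofFun (fun g => if g ∈ R then (Nat.card R : ℂ)⁻¹ else 0)
  have hzc : ∀ g, z.coeff g = if g ∈ R then (Nat.card R : ℂ)⁻¹ else 0 := fun g => rfl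
  have hz : IsCentral z := by
    intro g h
    rw [hzc, hzc]
    have : h * g * h⁻¹ ∈ R ↔ g ∈ R := by
      constructor
      · intro hg
        have := hRn.conj_mem _ hg h⁻¹
        simpa [mul_assoc] using this
      · exact fun hg => hRn.conj_mem g hg h
    simp only [this]
  have hsum : ∀ F : G → ℂ, ∑ g : G, z.coeff g * F g = (Nat.card R : ℂ)⁻¹ * ∑ y : R, F y := by
    intro F
    rw [Finset.mul_sum]
    simp only [hzc, ite_mul, zero_mul]
    rw [← Finset.sum_filter]
    exact Finset.sum_subtype _ (by simp) _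
  have h1 := sum_central_mul hχ hz x
  rw [hsum] at h1
  have h2 : ∑ y : R, χ (x * y) = ∑ y : R, χ (y * x) :=
    Fintype.sum_congr _ _ fun y => comm_of_class hcf _ _
  rw [h2]
  split_ifs with hk
  · have h3 : omega χ z = 1 := by
      rw [omega, lin_apply, hsum]
      have h4 : ∑ y : R, χ y = (Nat.card R : ℂ) * χ 1 := by
        rw [Finset.sum_congr rfl (fun (y : R) _ => hk y y.2), Finset.sum_const, Finset.card_univ,
          nsmul_eq_mul, Nat.card_eq_fintype_card]
      rw [h4, ← mul_assoc, inv_mul_cancel₀ hcard, one_mul, div_self (irr_one_ne_zero hχ)]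
    rw [h3, one_mul] at h1
    rw [← h1, ← mul_assoc, mul_inv_cancel₀ hcard, one_mul]
  · push Not at hk
    obtain ⟨y₀, hy₀, hne⟩ := hk
    have h3 : omega χ z = 0 := by
      have h4 := sum_central_mul hχ hz y₀
      have h5 := sum_central_mul hχ hz 1
      rw [hsum] at h4 h5
      have h6 : ∑ y : R, χ ((y : G) * y₀) = ∑ y : R, χ ((y : G) * 1) := by
        simp only [mul_one]
        exact Fintype.sum_equiv (Equiv.mulRight (⟨y₀, hy₀⟩ : R)) _ _ fun y => rfl
      rw [h6, h5] at h4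
      have h7 : omega χ z * (χ 1 - χ y₀) = 0 := by
        rw [mul_sub, h4, sub_self]
      rcases mul_eq_zero.mp h7 with h8 | h8
      · exact h8
      · exact absurd (sub_eq_zero.mp h8).symm hne
    rw [h3, zero_mul] at h1
    have h4 := (mul_eq_zero.mp h1).resolve_left (inv_ne_zero hcard)
    exact h4

/-- Right translations by members of the kernel. -/
theorem irr_mul_mem {χ : G → ℂ} (hχ : IsIrrCharacter G χ) (R : Subgroup G) [hRn : R.Normal]
    (hk : ∀ y ∈ R, χ y = χ 1) (x : G) {y : G} (hy : y ∈ R) : χ (x * y) = χ x := by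
  haveI : Fintype R := Fintype.ofFinite _
  have hcard : (Nat.card R : ℂ) ≠ 0 := Nat.cast_ne_zero.mpr Nat.card_pos.ne'
  have h1 := sum_mem_irr hχ R x
  have h2 := sum_mem_irr hχ R (x * y)
  rw [if_pos hk] at h1 h2
  have h3 : ∑ z : R, χ (x * y * z) = ∑ z : R, χ (x * z) := by
    refine Fintype.sum_equiv (Equiv.mulLeft (⟨y, hy⟩ : R)) _ _ fun z => ?_
    simp [mul_assoc]
  rw [h3, h1] at h2
  exact (mul_left_cancel₀ hcard h2).symm

variable [Fintype (IrrCharacter G)]

/-- The weighted sum of a set of irreducible characters. -/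
noncomputable def fS (S : Set (IrrCharacter G)) (x : G) : ℂ :=
  ∑ χ : IrrCharacter G, if χ ∈ S then (χ : G → ℂ) 1 * (χ : G → ℂ) x else 0

theorem fS_conj (S : Set (IrrCharacter G)) (x h : G) : fS S (h * x * h⁻¹) = fS S x := by
  unfold fS
  refine Fintype.sum_congr _ _ fun χ => ?_
  rw [isClassFunction_of_isIrrCharacter χ.2 x h]

/-- The members of `S` with `R` in their kernel. -/
def kerPart (S : Set (IrrCharacter G)) (R : Subgroup G) : Set (IrrCharacter G) :=
  {χ | χ ∈ S ∧ ∀ y ∈ R, (χ : G → ℂ) y = (χ : G → ℂ) 1}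

theorem sum_fS (S : Set (IrrCharacter G)) (R : Subgroup G) [R.Normal] [Fintype R] (x : G) :
    ∑ y : R, fS S (x * y) = (Nat.card R : ℂ) * fS (kerPart S R) x := by
  unfold fS
  rw [Finset.sum_comm, Finset.mul_sum]
  refine Fintype.sum_congr _ _ fun χ => ?_
  by_cases hχ : χ ∈ S
  · simp only [if_pos hχ]
    rw [← Finset.mul_sum, sum_mem_irr χ.2 R x]
    by_cases hk : ∀ y ∈ R, (χ : G → ℂ) y = (χ : G → ℂ) 1
    · have hm : χ ∈ kerPart S R := ⟨hχ, hk⟩
      rw [if_pos hk, if_pos hm]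
      ring
    · have hm : χ ∉ kerPart S R := fun h => hk h.2
      rw [if_neg hk, if_neg hm]
      simp
  · have hm : χ ∉ kerPart S R := fun h => hχ h.1
    simp only [if_neg hχ, if_neg hm]
    simp

theorem fS_mul_mem (S : Set (IrrCharacter G)) (R : Subgroup G) [R.Normal] (x : G) {y : G}
    (hy : y ∈ R) : fS (kerPart S R) (x * y) = fS (kerPart S R) x := by
  unfold fS
  refine Fintype.sum_congr _ _ fun χ => ?_
  split_ifs with h
  · rw [irr_mul_mem χ.2 R h.2 x hy]
  · rfl

/-- The values on `p`-regular elements from the values of the average. -/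
theorem card_mul_fS_kerPart {p : ℕ} [Fact p.Prime] (S : Set (IrrCharacter G)) (R : Subgroup G)
    [R.Normal] (hR : IsPGroup p R) (hS : ∀ x : G, p ∣ orderOf x → fS S x = 0) {g : G}
    (hg : ¬ p ∣ orderOf g) :
    (Nat.card ↥(R ⊓ Subgroup.centralizer ({g} : Set G)) : ℂ) * fS (kerPart S R) g = fS S g := by
  haveI : Fintype R := Fintype.ofFinite _
  have hcard : (Nat.card R : ℂ) ≠ 0 := Nat.cast_ne_zero.mpr Nat.card_pos.ne'
  have h1 := card_mul_sum_of_regular R hR (fS S) (fS_conj S) hS hg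
  rw [sum_fS] at h1
  have h2 : (Nat.card R : ℂ) * ((Nat.card ↥(R ⊓ Subgroup.centralizer ({g} : Set G)) : ℂ) *
      fS (kerPart S R) g) = (Nat.card R : ℂ) * fS S g := by
    rw [← h1]
    ring
  exact mul_left_cancel₀ hcard h2

theorem eq_empty_of_fS_eq_zero (S : Set (IrrCharacter G)) (h : ∀ x, fS S x = 0) : S = ∅ := by
  by_contra hne
  obtain ⟨χ, hχ⟩ := Set.nonempty_iff_ne_empty.mpr hne
  have h1 : classInner (fS S) (χ : G → ℂ) = 0 := by
    rw [classInner_def]
    simp [h]
  have h2 : fS S = ∑ φ : IrrCharacter G, if φ ∈ S then (φ : G → ℂ) 1 • (φ : G → ℂ) else 0 := by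
    funext x
    simp only [fS, Finset.sum_apply]
    refine Fintype.sum_congr _ _ fun φ => ?_
    split_ifs <;> simp
  rw [h2, classInner_sum_left, Finset.sum_eq_single χ] at h1
  · rw [if_pos hχ, classInner_smul_left, classInner_self_of_isIrr χ.2, mul_one] at h1
    exact irr_one_ne_zero χ.2 h1
  · intro φ _ hφ
    split_ifs
    · rw [classInner_smul_left, classInner_eq_zero_of_isIrr_of_ne φ.2 χ.2
        (fun h => hφ (Subtype.ext h)), mul_zero]
    · exact classInner_zero_left _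
  · intro hh
    exact absurd (Finset.mem_univ χ) hh

theorem kerPart_kerPart_of_le (S : Set (IrrCharacter G)) {R₁ R₂ : Subgroup G} (h : R₁ ≤ R₂) :
    kerPart (kerPart S R₁) R₂ = kerPart S R₂ := by
  ext χ
  constructor
  · rintro ⟨⟨h1, -⟩, h3⟩
    exact ⟨h1, h3⟩
  · rintro ⟨h1, h3⟩
    exact ⟨⟨h1, fun y hy => h3 y (h hy)⟩, h3⟩

/-- Expansion of a twisted sum. -/
theorem sum_mul_fS_conj (w : G → ℂ) (S T : Set (IrrCharacter G)) :
    ∑ x : G, w x * fS S x * conj (fS T x) =
      ∑ χ : IrrCharacter G, ∑ φ : IrrCharacter G, if χ ∈ S ∧ φ ∈ T then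
        (χ : G → ℂ) 1 * (φ : G → ℂ) 1 * ∑ x : G, w x * (χ : G → ℂ) x * conj ((φ : G → ℂ) x) else 0 := by
  have h1 : ∀ x : G, w x * fS S x * conj (fS T x) =
      ∑ χ : IrrCharacter G, ∑ φ : IrrCharacter G, if χ ∈ S ∧ φ ∈ T then
        (χ : G → ℂ) 1 * (φ : G → ℂ) 1 * (w x * (χ : G → ℂ) x * conj ((φ : G → ℂ) x)) else 0 := by
    intro x
    unfold fS
    rw [map_sum, mul_assoc, Finset.sum_mul_sum, Finset.mul_sum]
    refine Fintype.sum_congr _ _ fun χ => ?_
    rw [Finset.mul_sum]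
    refine Fintype.sum_congr _ _ fun φ => ?_
    by_cases hχ : χ ∈ S <;> by_cases hφ : φ ∈ T <;> simp [hχ, hφ]
    rw [irr_one_eq φ]
    simp only [Complex.conj_natCast]
    ring
  simp only [h1]
  rw [Finset.sum_comm]
  refine Fintype.sum_congr _ _ fun χ => ?_
  rw [Finset.sum_comm]
  refine Fintype.sum_congr _ _ fun φ => ?_
  split_ifs
  · rw [Finset.mul_sum]
  · simp

theorem sum_fS_conj_eq_zero {S T : Set (IrrCharacter G)} (h : ∀ χ, χ ∈ S → χ ∉ T) :
    ∑ x : G, fS S x * conj (fS T x) = 0 := by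
  have h1 := sum_mul_fS_conj (fun _ => 1) S T
  simp only [one_mul] at h1
  rw [h1]
  refine Finset.sum_eq_zero fun χ _ => Finset.sum_eq_zero fun φ _ => ?_
  split_ifs with h2
  · have hne : χ ≠ φ := fun e => h χ h2.1 (e ▸ h2.2)
    have h3 := classInner_eq_zero_of_isIrr_of_ne χ.2 φ.2 (fun e => hne (Subtype.ext e))
    rw [classInner_def] at h3
    have h4 := (mul_eq_zero.mp h3).resolve_left (inv_ne_zero card_ne_zero_complex)
    rw [h4, mul_zero]
  · rfl

/-- A constituent of a function invariant under right translations by `R` has `R` in its kernel. -/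
theorem ker_of_classInner_ne_zero (R : Subgroup G) [R.Normal] {α : G → ℂ}
    (hα : ∀ x : G, ∀ y ∈ R, α (x * y) = α x) (ν : IrrCharacter G)
    (h : classInner α (ν : G → ℂ) ≠ 0) : ∀ y ∈ R, (ν : G → ℂ) y = (ν : G → ℂ) 1 := by
  by_contra hk
  haveI : Fintype R := Fintype.ofFinite _
  have hcard : (Nat.card R : ℂ) ≠ 0 := Nat.cast_ne_zero.mpr Nat.card_pos.ne'
  have h0 : ∀ x : G, ∑ y : R, (ν : G → ℂ) (x * y) = 0 := fun x => by
    rw [sum_mem_irr ν.2 R x, if_neg hk]
  have h1 : ∀ y : R, ∑ x : G, α x * conj ((ν : G → ℂ) x) =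
      ∑ x : G, α x * conj ((ν : G → ℂ) (x * y)) := by
    intro y
    refine (Fintype.sum_equiv (Equiv.mulRight (y : G))
      (fun x => α x * conj ((ν : G → ℂ) (x * y))) (fun x => α x * conj ((ν : G → ℂ) x)) fun x => ?_).symm
    simp only [Equiv.coe_mulRight]
    rw [hα x y y.2]
  have h2 : (Nat.card R : ℂ) * ∑ x : G, α x * conj ((ν : G → ℂ) x) = 0 := by
    have h3 : ∑ y : R, ∑ x : G, α x * conj ((ν : G → ℂ) (x * y)) = 0 := by
      rw [Finset.sum_comm]
      refine Finset.sum_eq_zero fun x _ => ?_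
      rw [← Finset.mul_sum, ← map_sum, h0, map_zero, mul_zero]
    rw [← Finset.sum_congr rfl (fun y _ => h1 y)] at h3
    rw [Finset.sum_const, Finset.card_univ, nsmul_eq_mul, ← Nat.card_eq_fintype_card] at h3
    exact h3
  apply h
  rw [classInner_def, (mul_eq_zero.mp h2).resolve_left hcard, mul_zero]

/-- **The core lemma.** -/
theorem core {p : ℕ} [hpf : Fact p.Prime] (Q : Subgroup G) [hQn : Q.Normal] (hQ : IsPGroup p Q)
    {π : G → ℂ} (hπ : IsCharacter G π) (hπQ : ∀ x : G, ∀ y ∈ Q, π (y * x) = π x)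
    (hπ2 : ∀ g : G, ¬ p ∣ orderOf g →
        π g * (Nat.card ↥((⁅Q, Q⁆ : Subgroup G) ⊓ Subgroup.centralizer ({g} : Set G)) : ℂ) =
          (Nat.card ↥(Q ⊓ Subgroup.centralizer ({g} : Set G)) : ℂ))
    (T : Set (IrrCharacter G))
    (hT : ∀ χ ∈ T, ∀ ν : IrrCharacter G,
      classInner (fun x => π x * (χ : G → ℂ) x) (ν : G → ℂ) ≠ 0 → ν ∈ T)
    (hD : ∀ χ ∈ kerPart T Q, ∀ φ ∈ kerPart T Q, ∀ x : G, π x = π 1 →
      (χ : G → ℂ) x * conj ((φ : G → ℂ) x) = (χ : G → ℂ) 1 * (φ : G → ℂ) 1)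
    {U V : Set (IrrCharacter G)} (hUT : U ⊆ T) (hVT : V ⊆ T) (hcov : ∀ χ ∈ T, χ ∈ U ∨ χ ∈ V)
    (hdisj : ∀ χ, χ ∈ U → χ ∉ V)
    (hUs : ∀ x, p ∣ orderOf x → fS U x = 0) (hVs : ∀ x, p ∣ orderOf x → fS V x = 0) :
    U = ∅ ∨ V = ∅ := by
  have hQ'le : (⁅Q, Q⁆ : Subgroup G) ≤ Q := Subgroup.commutator_le_left Q Q
  have hQ' : IsPGroup p (⁅Q, Q⁆ : Subgroup G) := hQ.to_le hQ'le
  have hπcf := isClassFunction_of_isCharacter hπ
  have hπr : ∀ x : G, ∀ y ∈ Q, π (x * y) = π x := fun x y hy => by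
    rw [comm_of_class hπcf, hπQ x y hy]
  set UQ := kerPart U Q with hUQ
  set VQ := kerPart V Q with hVQ
  set U' := kerPart U (⁅Q, Q⁆ : Subgroup G) with hU'
  set V' := kerPart V (⁅Q, Q⁆ : Subgroup G) with hV'
  -- the values on `p`-regular elements
  have hreg : ∀ g : G, ¬ p ∣ orderOf g → π g * fS UQ g = fS U' g := by
    intro g hg
    have h1 := card_mul_fS_kerPart U Q hQ hUs hg
    have h2 := card_mul_fS_kerPart U (⁅Q, Q⁆ : Subgroup G) hQ' hUs hg
    have hc : (Nat.card ↥((⁅Q, Q⁆ : Subgroup G) ⊓ Subgroup.centralizer ({g} : Set G)) : ℂ) ≠ 0 :=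
      Nat.cast_ne_zero.mpr Nat.card_pos.ne'
    apply mul_left_cancel₀ hc
    rw [h2, ← h1, ← hπ2 g hg]
    ring
  -- the main sum
  have hmain : ∑ x : G, π x * fS UQ x * conj (fS VQ x) = 0 := by
    haveI : Fintype Q := Fintype.ofFinite _
    haveI : Fintype (⁅Q, Q⁆ : Subgroup G) := Fintype.ofFinite _
    have hcQ : (Nat.card Q : ℂ) ≠ 0 := Nat.cast_ne_zero.mpr Nat.card_pos.ne'
    have hcQ' : (Nat.card (⁅Q, Q⁆ : Subgroup G) : ℂ) ≠ 0 := Nat.cast_ne_zero.mpr Nat.card_pos.ne'
    have h0 : ∑ w : G, π w * fS UQ w * conj (fS V' w) = 0 := by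
      rw [← sum_fS_conj_eq_zero (S := U') (T := V') (fun χ h1 h2 => hdisj χ h1.1 h2.1)]
      refine Fintype.sum_congr _ _ fun w => ?_
      by_cases hw : fS V' w = 0
      · rw [hw]
        simp
      · have h1 := sum_fS V (⁅Q, Q⁆ : Subgroup G) w
        have h2 : ∑ y : (⁅Q, Q⁆ : Subgroup G), fS V (w * y) ≠ 0 := by
          rw [h1]
          exact mul_ne_zero hcQ' hw
        obtain ⟨y, -, hy⟩ := Finset.exists_ne_zero_of_sum_ne_zero h2
        have hg : ¬ p ∣ orderOf (w * (y : G)) := fun h3 => hy (hVs _ h3)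
        have h3 := hreg _ hg
        rw [hπr w y (hQ'le y.2), fS_mul_mem U Q w (hQ'le y.2),
          fS_mul_mem U (⁅Q, Q⁆ : Subgroup G) w y.2] at h3
        rw [h3]
    have h1 : ∀ x : G, (Nat.card Q : ℂ) * fS VQ x = ∑ y : Q, fS V' (x * y) := by
      intro x
      rw [sum_fS, hV', kerPart_kerPart_of_le V hQ'le]
    have h2 : (Nat.card Q : ℂ) * ∑ x : G, π x * fS UQ x * conj (fS VQ x) = 0 := by
      have h3 : ∀ x : G, (Nat.card Q : ℂ) * (π x * fS UQ x * conj (fS VQ x)) =
          ∑ y : Q, π x * fS UQ x * conj (fS V' (x * y)) := by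
        intro x
        rw [← Finset.mul_sum, ← map_sum, ← h1, map_mul, Complex.conj_natCast]
        ring
      rw [Finset.mul_sum]
      simp only [h3]
      rw [Finset.sum_comm]
      refine Finset.sum_eq_zero fun y _ => ?_
      rw [← h0]
      refine Fintype.sum_equiv (Equiv.mulRight (y : G)) _ _ fun x => ?_
      simp only [Equiv.coe_mulRight]
      rw [hπr x y y.2, fS_mul_mem U Q x y.2]
    exact (mul_eq_zero.mp h2).resolve_left hcQ
  -- the multiplicities vanish
  have hzero : ∀ χ ∈ UQ, ∀ φ ∈ VQ, classInner (fun x => π x * (χ : G → ℂ) x) (φ : G → ℂ) = 0 := by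
    have h0 : ∀ (χ φ : IrrCharacter G), ∃ n : ℕ,
        classInner (fun x => π x * (χ : G → ℂ) x) (φ : G → ℂ) = n := fun χ φ => exists_nat_classInner
      (isCharacter_mul hπ (isCharacter_of_isIrrCharacter χ.2)) (isCharacter_of_isIrrCharacter φ.2)
    choose n hn using h0
    rw [sum_mul_fS_conj] at hmain
    have h1 : ∀ χ φ : IrrCharacter G, ∑ x : G, π x * (χ : G → ℂ) x * conj ((φ : G → ℂ) x) =
        (Nat.card G : ℂ) * n χ φ := by
      intro χ φ
      have h2 := hn χ φ
      rw [classInner_def] at h2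
      rw [← h2, ← mul_assoc, mul_inv_cancel₀ card_ne_zero_complex, one_mul]
    simp only [h1] at hmain
    have h2 : (Nat.card G : ℂ) * ((∑ χ : IrrCharacter G, ∑ φ : IrrCharacter G, if χ ∈ UQ ∧ φ ∈ VQ then
        charDegree (χ : G → ℂ) * charDegree (φ : G → ℂ) * n χ φ else 0 : ℕ) : ℂ) = 0 := by
      rw [← hmain]
      push_cast
      rw [Finset.mul_sum]
      refine Fintype.sum_congr _ _ fun χ => ?_
      rw [Finset.mul_sum]
      refine Fintype.sum_congr _ _ fun φ => ?_
      split_ifs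
      · rw [irr_one_eq χ, irr_one_eq φ]
        ring
      · simp
    have h3 : (∑ χ : IrrCharacter G, ∑ φ : IrrCharacter G, if χ ∈ UQ ∧ φ ∈ VQ then
        charDegree (χ : G → ℂ) * charDegree (φ : G → ℂ) * n χ φ else 0) = 0 := by
      have h4 := (mul_eq_zero.mp h2).resolve_left card_ne_zero_complex
      exact_mod_cast h4
    intro χ hχ φ hφ
    have h4 := (Finset.sum_eq_zero_iff.mp h3) χ (Finset.mem_univ χ)
    have h5 := (Finset.sum_eq_zero_iff.mp h4) φ (Finset.mem_univ φ)
    rw [if_pos ⟨hχ, hφ⟩] at h5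
    have h6 : n χ φ = 0 := by
      rcases Nat.mul_eq_zero.mp h5 with h6 | h6
      · rcases Nat.mul_eq_zero.mp h6 with h7 | h7
        · exact absurd h7 (charDegree_ne_zero_irr χ)
        · exact absurd h7 (charDegree_ne_zero_irr φ)
      · exact h6
    rw [hn χ φ, h6]
    simp
  -- constituents
  have hstep : ∀ χ ∈ UQ, ∀ ν : IrrCharacter G,
      classInner (fun x => π x * (χ : G → ℂ) x) (ν : G → ℂ) ≠ 0 → ν ∈ UQ := by
    intro χ hχ ν hν
    have hνT := hT χ (hUT hχ.1) ν hν
    have hνk : ∀ y ∈ Q, (ν : G → ℂ) y = (ν : G → ℂ) 1 := by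
      refine ker_of_classInner_ne_zero Q (fun x y hy => ?_) ν hν
      rw [hπr x y hy, irr_mul_mem χ.2 Q hχ.2 x hy]
    rcases hcov ν hνT with h1 | h1
    · exact ⟨h1, hνk⟩
    · exact absurd (hzero χ hχ ν ⟨h1, hνk⟩) hν
  have hpow : ∀ n : ℕ, ∀ χ ∈ UQ, ∀ ν : IrrCharacter G,
      classInner (fun x => π x ^ n * (χ : G → ℂ) x) (ν : G → ℂ) ≠ 0 → ν ∈ UQ := by
    intro n
    induction n with
    | zero =>
      intro χ hχ ν hν
      simp only [pow_zero, one_mul] at hν
      have : χ = ν := by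
        by_contra hne
        exact hν (classInner_eq_zero_of_isIrr_of_ne χ.2 ν.2 (fun e => hne (Subtype.ext e)))
      rwa [← this]
    | succ n ih =>
      intro χ hχ ν hν
      have hcfn : IsClassFunction G (fun x => π x ^ n * (χ : G → ℂ) x) := by
        intro x h
        simp only
        rw [hπcf x h, isClassFunction_of_isIrrCharacter χ.2 x h]
      have h1 := classFunction_eq_sum hcfn
      have h2 : (fun x => π x ^ (n + 1) * (χ : G → ℂ) x) =
          ∑ κ : IrrCharacter G, classInner (fun x => π x ^ n * (χ : G → ℂ) x) (κ : G → ℂ) •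
            (fun x => π x * (κ : G → ℂ) x) := by
        funext x
        have h3 := congrFun h1 x
        simp only [Finset.sum_apply, Pi.smul_apply, smul_eq_mul] at h3 ⊢
        rw [pow_succ', mul_assoc, h3, Finset.mul_sum]
        refine Fintype.sum_congr _ _ fun κ => ?_
        ring
      rw [h2, classInner_sum_left] at hν
      obtain ⟨κ, -, hκ⟩ := Finset.exists_ne_zero_of_sum_ne_zero hν
      rw [classInner_smul_left] at hκ
      have hκ1 := left_ne_zero_of_mul hκ
      have hκ2 := right_ne_zero_of_mul hκ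
      exact hstep κ (ih χ hχ κ hκ1) ν hκ2
  -- Burnside-Brauer
  have hno : ∀ χ ∈ UQ, ∀ φ ∈ VQ, False := by
    intro χ hχ φ hφ
    have hφU : φ ∉ UQ := fun h => hdisj φ h.1 hφ.1
    have hs : ∀ n : ℕ, ∑ x : G, π x ^ n * ((χ : G → ℂ) x * conj ((φ : G → ℂ) x)) = 0 := by
      intro n
      have h1 : classInner (fun x => π x ^ n * (χ : G → ℂ) x) (φ : G → ℂ) = 0 := by
        by_contra h
        exact hφU (hpow n χ hχ φ h)
      rw [classInner_def] at h1
      have h2 := (mul_eq_zero.mp h1).resolve_left (inv_ne_zero card_ne_zero_complex)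
      rw [← h2]
      refine Fintype.sum_congr _ _ fun x => ?_
      ring
    let P : Polynomial ℂ := ∏ α ∈ (Finset.univ.image π).erase (π 1), (Polynomial.X - Polynomial.C α)
    have hP : ∀ x : G, P.eval (π x) = if π x = π 1 then P.eval (π 1) else 0 := by
      intro x
      split_ifs with h
      · rw [h]
      · rw [Polynomial.eval_prod]
        apply Finset.prod_eq_zero (i := π x)
        · exact Finset.mem_erase.mpr ⟨h, Finset.mem_image_of_mem _ (Finset.mem_univ x)⟩
        · simp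
    have hP1 : P.eval (π 1) ≠ 0 := by
      rw [Polynomial.eval_prod, Finset.prod_ne_zero_iff]
      intro α hα
      simp only [Polynomial.eval_sub, Polynomial.eval_X, Polynomial.eval_C]
      exact sub_ne_zero.mpr (Finset.ne_of_mem_erase hα).symm
    have hsP : ∑ x : G, P.eval (π x) * ((χ : G → ℂ) x * conj ((φ : G → ℂ) x)) = 0 := by
      simp only [Polynomial.eval_eq_sum_range, Finset.sum_mul]
      rw [Finset.sum_comm]
      refine Finset.sum_eq_zero fun n _ => ?_
      have h1 := hs n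
      calc ∑ x : G, P.coeff n * π x ^ n * ((χ : G → ℂ) x * conj ((φ : G → ℂ) x))
          = P.coeff n * ∑ x : G, π x ^ n * ((χ : G → ℂ) x * conj ((φ : G → ℂ) x)) := by
            rw [Finset.mul_sum]
            refine Fintype.sum_congr _ _ fun x => ?_
            ring
        _ = 0 := by rw [h1, mul_zero]
    have hχT : χ ∈ kerPart T Q := ⟨hUT hχ.1, hχ.2⟩
    have hφT : φ ∈ kerPart T Q := ⟨hVT hφ.1, hφ.2⟩
    have h2 : ∀ x : G, P.eval (π x) * ((χ : G → ℂ) x * conj ((φ : G → ℂ) x)) =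
        if π x = π 1 then P.eval (π 1) * ((χ : G → ℂ) 1 * (φ : G → ℂ) 1) else 0 := by
      intro x
      rw [hP x]
      split_ifs with h
      · rw [hD χ hχT φ hφT x h]
      · rw [zero_mul]
    simp only [h2] at hsP
    rw [← Finset.sum_filter, Finset.sum_const, nsmul_eq_mul] at hsP
    have hcardne : ((Finset.univ.filter (fun x : G => π x = π 1)).card : ℂ) ≠ 0 := by
      apply Nat.cast_ne_zero.mpr
      exact Finset.card_ne_zero_of_mem (a := (1 : G)) (by simp)
    exact (mul_ne_zero hcardne (mul_ne_zero hP1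
      (mul_ne_zero (irr_one_ne_zero χ.2) (irr_one_ne_zero φ.2)))) hsP
  -- conclusion
  by_cases hUQe : UQ = ∅
  · left
    apply eq_empty_of_fS_eq_zero
    intro x
    by_cases hx : p ∣ orderOf x
    · exact hUs x hx
    · rw [← card_mul_fS_kerPart U Q hQ hUs hx]
      have h1 : fS UQ x = 0 := by
        simp [fS, hUQe]
      rw [h1, mul_zero]
  · right
    obtain ⟨χ, hχ⟩ := Set.nonempty_iff_ne_empty.mpr hUQe
    have hVQe : VQ = ∅ := by
      by_contra hne
      obtain ⟨φ, hφ⟩ := Set.nonempty_iff_ne_empty.mpr hne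
      exact hno χ hχ φ hφ
    apply eq_empty_of_fS_eq_zero
    intro x
    by_cases hx : p ∣ orderOf x
    · exact hVs x hx
    · rw [← card_mul_fS_kerPart V Q hQ hVs hx]
      have h1 : fS VQ x = 0 := by
        simp [fS, hVQe]
      rw [h1, mul_zero]

end Cfsg.Agent.Lib.KO.Core
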