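import Mathlib
import Cfsg.Agent.Lib.KO.Core
import Cfsg.Agent.Lib.CharTriple.Central
import Cfsg.Agent.Lib.Char.CentralCount
import Cfsg.Agent.Lib.Core.Basic

/-!
# The core lemma for a central extension of a `p`-constrained group
-/

set_option autoImplicit false
set_option linter.unusedSectionVars false
set_option linter.style.haveILetI false

namespace Cfsg.Agent.Lib.KO.CentralExt

open Cfsg Module Finset
open Cfsg.Agent.Lib.Char.Basic Cfsg.Agent.Lib.Char.Ortho Cfsg.Agent.Lib.Char.Complete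
open Cfsg.Agent.Lib.KO.Group Cfsg.Agent.Lib.KO.Core Cfsg.Agent.Lib.Core.Basic
open Cfsg.Agent.Lib.Blocks.Heights
open scoped ComplexConjugate

universe u v

variable {Γ : Type u} [Group Γ] [Finite Γ] {GB : Type v} [Group GB] [Finite GB] {p : ℕ} [hpf : Fact p.Prime]

/-- The group-theoretic part: a normal `p`-subgroup `Q` with `C_Γ(Q/Q') ≤ Z Q`. -/
theorem exists_subgroup (ϖ : Γ →* GB) (hϖ : Function.Surjective ϖ)
    (hcen : ∀ z ∈ ϖ.ker, ∀ x : Γ, z * x = x * z)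
    (hCG : Subgroup.centralizer (pCore p GB : Set GB) ≤ pCore p GB) :
    ∃ Q : Subgroup Γ, Q.Normal ∧ IsPGroup p Q ∧
      ∀ x : Γ, (∀ u ∈ Q, x * u * x⁻¹ * u⁻¹ ∈ (⁅Q, Q⁆ : Subgroup Γ)) →
        ∃ z ∈ ϖ.ker, ∃ y ∈ Q, x = z * y := by
  classical
  have hp : p.Prime := hpf.out
  let Z : Subgroup Γ := ϖ.ker
  let L : Subgroup Γ := (pCore p GB).comap ϖ
  haveI hLn : L.Normal := Subgroup.Normal.comap inferInstance ϖ
  have hZL : Z ≤ L := fun z hz => by
    show ϖ z ∈ pCore p GB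
    rw [hz]
    exact one_mem _
  obtain ⟨P, Q₀, hPn, hPL, hQ₀Z, -, hfact, -, -, hprimes⟩ :=
    Cfsg.Agent.Lib.CharTriple.Central.central_split_in L Z hZL hcen
  have hprimes' : ∀ r : ℕ, r.Prime → r ∣ Nat.card P → r = p := by
    intro r hr hrP
    have h1 := hprimes r hr hrP
    have hpg : IsPGroup p (L ⧸ Z.subgroupOf L) := by
      intro q
      obtain ⟨⟨a, ha⟩, rfl⟩ := QuotientGroup.mk_surjective q
      obtain ⟨k, hk⟩ := (pCore_isPGroup (p := p) (G := GB)) ⟨ϖ a, ha⟩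
      refine ⟨k, ?_⟩
      rw [← QuotientGroup.mk_pow, QuotientGroup.eq_one_iff, Subgroup.mem_subgroupOf]
      have h2 : (ϖ a) ^ p ^ k = 1 := congrArg Subtype.val hk
      show ϖ (a ^ p ^ k) = 1
      rw [map_pow, h2]
    obtain ⟨n, hn⟩ := IsPGroup.iff_card.mp hpg
    have h2 : Z.relIndex L = p ^ n := by
      rw [Subgroup.relIndex, Subgroup.index, hn]
    rw [h2] at h1
    exact (Nat.prime_dvd_prime_iff_eq hr hp).mp (hr.dvd_of_dvd_pow h1)
  have hPp : IsPGroup p P := by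
    apply IsPGroup.of_card (n := (Nat.card P).primeFactorsList.length)
    exact Nat.eq_prime_pow_of_unique_prime_dvd Nat.card_pos.ne' (fun {r} hr h => hprimes' r hr h)
  refine ⟨P, hPn, hPp, ?_⟩
  haveI := hPn
  have hDp : IsPGroup p ((fixD P).map ϖ) := by
    rintro ⟨_, x, hx, rfl⟩
    obtain ⟨a, m, hm, ho⟩ := Nat.exists_eq_pow_mul_and_not_dvd (orderOf_pos x).ne' p hp.ne_one
    let y : Γ := x ^ p ^ a
    have hyD : y ∈ fixD P := Subgroup.pow_mem _ hx _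
    have hym : y ^ m = 1 := by
      show (x ^ p ^ a) ^ m = 1
      rw [← pow_mul, ← ho, pow_orderOf_eq_one]
    have hyo : ¬ p ∣ orderOf y := fun h => hm (h.trans (orderOf_dvd_of_pow_eq_one hym))
    have hyc := fix_of_fix_commutator P hPp hyo hyD
    have hcent : ϖ y ∈ Subgroup.centralizer (pCore p GB : Set GB) := by
      rw [Subgroup.mem_centralizer_iff]
      intro l hl
      obtain ⟨l, rfl⟩ := hϖ l
      obtain ⟨u, hu, v, hv, e⟩ := hfact l hl
      rw [← map_mul, ← map_mul]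
      congr 1
      rw [e, ← mul_assoc y u v, hyc u hu, mul_assoc, mul_assoc, hcen v (hQ₀Z hv) y]
    have hy1 : ϖ y = 1 := by
      apply eq_one_of_mem_of_regular (pCore_isPGroup (p := p) (G := GB)) (hCG hcent)
      intro h
      exact hyo (h.trans (orderOf_map_dvd ϖ y))
    refine ⟨a, ?_⟩
    apply Subtype.ext
    show (ϖ x) ^ p ^ a = 1
    rw [← map_pow]
    exact hy1
  have hDn : ((fixD P).map ϖ).Normal := Subgroup.Normal.map inferInstance ϖ hϖ
  have hDle := le_pCore hDn hDp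
  intro x hx
  have hxL : x ∈ L := hDle ⟨x, hx, rfl⟩
  obtain ⟨u, hu, v, hv, e⟩ := hfact x hxL
  exact ⟨v, hQ₀Z hv, u, hu, by rw [e]; exact (hcen v (hQ₀Z hv) u).symm⟩

/-- Translation by a central element. -/
theorem irr_central_mul {Γ : Type u} [Group Γ] [Fintype Γ] {χ : Γ → ℂ} (hχ : IsIrrCharacter Γ χ) {z : Γ}
    (hz : ∀ x : Γ, z * x = x * z) {c : ℂ} (hc : χ z = c * χ 1) (x : Γ) : χ (z * x) = c * χ x := by
  have hzc : z ∈ Subgroup.center Γ := Subgroup.mem_center_iff.mpr fun g => (hz g).symm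
  have h1 := Cfsg.Agent.Lib.Char.CentralCount.char_mul_central hχ hzc x
  rw [hc, ← hz x] at h1
  have h2 := irr_one_ne_zero hχ
  apply mul_right_cancel₀ h2
  rw [h1]
  ring

/-- **The core lemma for a central extension.** -/
theorem core_central [Fintype Γ] [Fintype (IrrCharacter Γ)] (ϖ : Γ →* GB) (hϖ : Function.Surjective ϖ)
    (hcen : ∀ z ∈ ϖ.ker, ∀ x : Γ, z * x = x * z)
    (hCG : Subgroup.centralizer (pCore p GB : Set GB) ≤ pCore p GB)
    (μ : Γ → ℂ) (hμ : ∀ z ∈ ϖ.ker, ‖μ z‖ = 1) (T : Set (IrrCharacter Γ))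
    (hTdef : ∀ χ : IrrCharacter Γ, χ ∈ T ↔ ∀ z ∈ ϖ.ker, (χ : Γ → ℂ) z = μ z * (χ : Γ → ℂ) 1)
    {U V : Set (IrrCharacter Γ)} (hUT : U ⊆ T) (hVT : V ⊆ T) (hcov : ∀ χ ∈ T, χ ∈ U ∨ χ ∈ V)
    (hdisj : ∀ χ, χ ∈ U → χ ∉ V)
    (hUs : ∀ x, p ∣ orderOf x → fS U x = 0) (hVs : ∀ x, p ∣ orderOf x → fS V x = 0) :
    U = ∅ ∨ V = ∅ := by
  classical
  obtain ⟨Q, hQn, hQ, hC⟩ := exists_subgroup ϖ hϖ hcen hCG
  haveI := hQn
  obtain ⟨π, hπ, hπ1, hπ4, hπ3, hπ2⟩ := exists_pi (p := p) Q hQ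
  have hμμ : ∀ z ∈ ϖ.ker, μ z * conj (μ z) = 1 := by
    intro z hz
    rw [Complex.mul_conj, Complex.normSq_eq_norm_sq, hμ z hz]
    simp
  refine core Q hQ hπ hπ1 hπ2 T ?_ ?_ hUT hVT hcov hdisj hUs hVs
  · intro χ hχ ν hν
    rw [hTdef]
    intro z hz
    have hχz := (hTdef χ).mp hχ z hz
    have h1 : ∀ x : Γ, (χ : Γ → ℂ) (z * x) = μ z * (χ : Γ → ℂ) x := irr_central_mul χ.2 (hcen z hz) hχz
    have hν1 := irr_one_ne_zero ν.2
    set ω : ℂ := (ν : Γ → ℂ) z / (ν : Γ → ℂ) 1 with hω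
    have hνz : (ν : Γ → ℂ) z = ω * (ν : Γ → ℂ) 1 := by
      rw [hω, div_mul_cancel₀ _ hν1]
    have h2 : ∀ x : Γ, (ν : Γ → ℂ) (z * x) = ω * (ν : Γ → ℂ) x := irr_central_mul ν.2 (hcen z hz) hνz
    set S : ℂ := ∑ x : Γ, π x * (χ : Γ → ℂ) x * conj ((ν : Γ → ℂ) x) with hS
    have hS0 : S ≠ 0 := by
      intro h0
      apply hν
      rw [Cfsg.Agent.Lib.Char.Ortho.classInner_def, hS] at *
      rw [h0, mul_zero]
    have h3 : S = μ z * conj ω * S := by
      conv_lhs => rw [hS]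
      rw [← Equiv.sum_comp (Equiv.mulLeft z), hS, Finset.mul_sum]
      refine Fintype.sum_congr _ _ fun x => ?_
      simp only [Equiv.coe_mulLeft]
      rw [hπ4 z (hcen z hz) x, h1, h2, map_mul]
      ring
    have h4 : μ z * conj ω = 1 := by
      have h5 : (μ z * conj ω - 1) * S = 0 := by
        rw [sub_mul, ← h3, one_mul, sub_self]
      rcases mul_eq_zero.mp h5 with h6 | h6
      · exact sub_eq_zero.mp h6
      · exact absurd h6 hS0
    have h5 : ω = μ z := by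
      have h6 : conj (μ z * conj ω) = 1 := by rw [h4, map_one]
      rw [map_mul, Complex.conj_conj] at h6
      calc ω = ω * (μ z * conj (μ z)) := by rw [hμμ z hz, mul_one]
        _ = μ z * (conj (μ z) * ω) := by ring
        _ = μ z := by rw [h6, mul_one]
    rw [hνz, h5]
  · intro χ hχ φ hφ x hx
    obtain ⟨z, hz, y, hy, rfl⟩ := hC x (hπ3 x hx)
    have hχz := (hTdef χ).mp hχ.1 z hz
    have hφz := (hTdef φ).mp hφ.1 z hz
    rw [irr_central_mul χ.2 (hcen z hz) hχz, irr_central_mul φ.2 (hcen z hz) hφz, hχ.2 y hy, hφ.2 y hy,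
      map_mul, irr_one_eq φ, Complex.conj_natCast]
    calc μ z * (χ : Γ → ℂ) 1 * (conj (μ z) * (charDegree (φ : Γ → ℂ) : ℂ))
        = (μ z * conj (μ z)) * ((χ : Γ → ℂ) 1 * (charDegree (φ : Γ → ℂ) : ℂ)) := by ring
      _ = _ := by rw [hμμ z hz, one_mul]

end Cfsg.Agent.Lib.KO.CentralExt
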