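import Mathlib
import Cfsg.Agent.Lib.KO.CentralExt

/-!
# Transferring sets of characters along a correspondence `χ ∘ pH = (τ ∘ π₁) ν`
-/

set_option autoImplicit false
set_option linter.unusedSectionVars false
set_option linter.style.haveILetI false

namespace Cfsg.Agent.Lib.KO.Transfer

open Cfsg Module Finset
open Cfsg.Agent.Lib.Char.Basic Cfsg.Agent.Lib.Char.Ortho Cfsg.Agent.Lib.Char.Complete
open Cfsg.Agent.Lib.KO.Core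
open scoped Classical ComplexConjugate

universe u

variable {G H Γ : Type u} [Group G] [Fintype G] [Fintype (IrrCharacter G)] [Group H] [Group Γ]
  [Fintype Γ] [Fintype (IrrCharacter Γ)]

/-- The characters corresponding to a set of characters. -/
def star (pH : H →* G) (π₁ : H →* Γ) (ν : H → ℂ) (T : Set (IrrCharacter Γ)) (W : Set (IrrCharacter G)) :
    Set (IrrCharacter Γ) :=
  {τ | τ ∈ T ∧ ∃ χ ∈ W, ∀ a, (χ : G → ℂ) (pH a) = (τ : Γ → ℂ) (π₁ a) * ν a}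

theorem fS_star (pH : H →* G) (hpH : Function.Surjective pH) (π₁ : H →* Γ) (ν : H → ℂ) {d : ℂ}
    (hν1 : ν 1 = d) (S : Set (IrrCharacter G)) (T : Set (IrrCharacter Γ))
    (hab : ∀ χ ∈ S, ∃ τ ∈ T, ∀ a, (χ : G → ℂ) (pH a) = (τ : Γ → ℂ) (π₁ a) * ν a)
    (hba : ∀ τ ∈ T, ∃ χ ∈ S, ∀ a, (χ : G → ℂ) (pH a) = (τ : Γ → ℂ) (π₁ a) * ν a)
    (huniq : ∀ τ₁ ∈ T, ∀ τ₂ ∈ T, (∀ a, (τ₁ : Γ → ℂ) (π₁ a) * ν a = (τ₂ : Γ → ℂ) (π₁ a) * ν a) → τ₁ = τ₂)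
    {W : Set (IrrCharacter G)} (hW : W ⊆ S) (a : H) :
    fS W (pH a) = d * fS (star pH π₁ ν T W) (π₁ a) * ν a := by
  have hinj : ∀ χ χ' : IrrCharacter G, (∀ a, (χ : G → ℂ) (pH a) = (χ' : G → ℂ) (pH a)) → χ = χ' := by
    intro χ χ' h
    apply Subtype.ext
    funext x
    obtain ⟨b, rfl⟩ := hpH x
    exact h b
  choose f hfT hf using hab
  choose g hgS hg using hba
  have h1 : fS W (pH a) = ∑ χ ∈ Finset.univ.filter (· ∈ W), (χ : G → ℂ) 1 * (χ : G → ℂ) (pH a) := by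
    rw [fS, Finset.sum_filter]
  have h2 : fS (star pH π₁ ν T W) (π₁ a) = ∑ τ ∈ Finset.univ.filter (· ∈ star pH π₁ ν T W),
      (τ : Γ → ℂ) 1 * (τ : Γ → ℂ) (π₁ a) := by
    rw [fS, Finset.sum_filter]
  rw [h1, h2, Finset.mul_sum, Finset.sum_mul]
  refine Finset.sum_bij' (fun χ hχ => f χ (hW (Finset.mem_filter.mp hχ).2))
    (fun τ hτ => g τ (Finset.mem_filter.mp hτ).2.1) ?_ ?_ ?_ ?_ ?_
  · intro χ hχ
    have hχW := (Finset.mem_filter.mp hχ).2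
    exact Finset.mem_filter.mpr ⟨Finset.mem_univ _, hfT χ (hW hχW), χ, hχW, hf χ (hW hχW)⟩
  · intro τ hτ
    obtain ⟨hτT, χ, hχW, hχ⟩ := (Finset.mem_filter.mp hτ).2
    have h3 : g τ hτT = χ := hinj _ _ fun b => by rw [hg τ hτT, hχ]
    rw [h3]
    exact Finset.mem_filter.mpr ⟨Finset.mem_univ _, hχW⟩
  · intro χ hχ
    have hχW := (Finset.mem_filter.mp hχ).2
    exact hinj _ _ fun b => by rw [hg, hf]
  · intro τ hτ
    have hτT := (Finset.mem_filter.mp hτ).2.1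
    apply huniq _ (hfT _ _) _ hτT
    intro b
    rw [← hf, hg]
  · intro χ hχ
    have hχW := (Finset.mem_filter.mp hχ).2
    have h3 := hf χ (hW hχW) a
    have h4 := hf χ (hW hχW) 1
    rw [map_one, map_one, hν1] at h4
    rw [h3, h4]
    ring

/-- **The transfer.** -/
theorem transfer {p : ℕ} (pH : H →* G) (hpH : Function.Surjective pH) (π₁ : H →* Γ)
    (hπ₁ : Function.Surjective π₁) (ν : H → ℂ) {d : ℂ}
    (hν1 : ν 1 = d) (hd : d ≠ 0) (S : Set (IrrCharacter G)) (T : Set (IrrCharacter Γ))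
    (hab : ∀ χ ∈ S, ∃ τ ∈ T, ∀ a, (χ : G → ℂ) (pH a) = (τ : Γ → ℂ) (π₁ a) * ν a)
    (hba : ∀ τ ∈ T, ∃ χ ∈ S, ∀ a, (χ : G → ℂ) (pH a) = (τ : Γ → ℂ) (π₁ a) * ν a)
    (huniq : ∀ τ₁ ∈ T, ∀ τ₂ ∈ T, (∀ a, (τ₁ : Γ → ℂ) (π₁ a) * ν a = (τ₂ : Γ → ℂ) (π₁ a) * ν a) → τ₁ = τ₂)
    (N : Set H) (μ : H → ℂ) (hμ0 : ∀ n ∈ N, μ n ≠ 0)
    (hval : ∀ τ ∈ T, ∀ n ∈ N, ∀ a, (τ : Γ → ℂ) (π₁ (n * a)) = μ n * (τ : Γ → ℂ) (π₁ a))
    (hne : ∀ a, ∃ n ∈ N, ν (n * a) ≠ 0)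
    (hsing : ∀ a, p ∣ orderOf (π₁ a) → ∀ n ∈ N, p ∣ orderOf (pH (n * a)))
    (hcore : ∀ U V : Set (IrrCharacter Γ), U ⊆ T → V ⊆ T → (∀ χ ∈ T, χ ∈ U ∨ χ ∈ V) →
      (∀ χ, χ ∈ U → χ ∉ V) → (∀ x, p ∣ orderOf x → fS U x = 0) → (∀ x, p ∣ orderOf x → fS V x = 0) →
      U = ∅ ∨ V = ∅)
    {U V : Set (IrrCharacter G)} (hU : U ⊆ S) (hV : V ⊆ S) (hcov : ∀ χ ∈ S, χ ∈ U ∨ χ ∈ V)
    (hdisj : ∀ χ, χ ∈ U → χ ∉ V) (hUs : ∀ x, p ∣ orderOf x → fS U x = 0)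
    (hVs : ∀ x, p ∣ orderOf x → fS V x = 0) : U = ∅ ∨ V = ∅ := by
  have hvan : ∀ W : Set (IrrCharacter G), W ⊆ S → (∀ x, p ∣ orderOf x → fS W x = 0) →
      ∀ x, p ∣ orderOf x → fS (star pH π₁ ν T W) x = 0 := by
    intro W hW hWs x hx
    obtain ⟨a, rfl⟩ := hπ₁ x
    obtain ⟨n, hn, hν⟩ := hne a
    have h1 := fS_star pH hpH π₁ ν hν1 S T hab hba huniq hW (n * a)
    rw [hWs _ (hsing a hx n hn)] at h1
    have h2 : fS (star pH π₁ ν T W) (π₁ (n * a)) = μ n * fS (star pH π₁ ν T W) (π₁ a) := by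
      unfold fS
      rw [Finset.mul_sum]
      refine Fintype.sum_congr _ _ fun τ => ?_
      split_ifs with hτ
      · rw [hval τ hτ.1 n hn a]
        ring
      · simp
    rw [h2] at h1
    have h3 := h1.symm
    simp only [mul_eq_zero] at h3
    rcases h3 with (h3 | h3 | h3) | h3
    · exact absurd h3 hd
    · exact absurd h3 (hμ0 n hn)
    · exact h3
    · exact absurd h3 hν
  have hcov' : ∀ τ ∈ T, τ ∈ star pH π₁ ν T U ∨ τ ∈ star pH π₁ ν T V := by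
    intro τ hτ
    obtain ⟨χ, hχS, hχ⟩ := hba τ hτ
    rcases hcov χ hχS with h | h
    · exact Or.inl ⟨hτ, χ, h, hχ⟩
    · exact Or.inr ⟨hτ, χ, h, hχ⟩
  have hdisj' : ∀ τ, τ ∈ star pH π₁ ν T U → τ ∉ star pH π₁ ν T V := by
    rintro τ ⟨-, χ, hχ, h1⟩ ⟨-, χ', hχ', h2⟩
    have h3 : χ = χ' := by
      apply Subtype.ext
      funext x
      obtain ⟨b, rfl⟩ := hpH x
      rw [h1, h2]
    exact hdisj χ hχ (h3 ▸ hχ')
  have hempty : ∀ W : Set (IrrCharacter G), W ⊆ S → star pH π₁ ν T W = ∅ → W = ∅ := by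
    intro W hW h
    by_contra hne
    obtain ⟨χ, hχ⟩ := Set.nonempty_iff_ne_empty.mpr hne
    obtain ⟨τ, hτ, h1⟩ := hab χ (hW hχ)
    have : τ ∈ star pH π₁ ν T W := ⟨hτ, χ, hχ, h1⟩
    rw [h] at this
    exact this
  rcases hcore _ _ (fun _ h => h.1) (fun _ h => h.1) hcov' hdisj' (hvan U hU hUs) (hvan V hV hVs) with h | h
  · exact Or.inl (hempty U hU h)
  · exact Or.inr (hempty V hV h)

end Cfsg.Agent.Lib.KO.Transfer
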