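import Mathlib
import Cfsg.Agent.Lib.KO.Transfer
import Cfsg.Agent.Lib.CharTriple.FongCore

/-!
# The case of an invariant character of a normal `p'`-subgroup

Via the central extension `Hat` attached to an invariant irreducible representation.
-/

set_option autoImplicit false
set_option linter.unusedSectionVars false
set_option linter.style.haveILetI false

namespace Cfsg.Agent.Lib.KO.HatCase

open Cfsg Module
open Cfsg.Agent.Lib.Char.Basic Cfsg.Agent.Lib.Char.Ortho Cfsg.Agent.Lib.Char.Complete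
open Cfsg.Agent.Lib.Char.Conj Cfsg.Agent.Lib.Char.ProjExt Cfsg.Agent.Lib.CharTriple.Hat
open Cfsg.Agent.Lib.CharTriple.Bridge Cfsg.Agent.Lib.CharTriple.Above
open Cfsg.Agent.Lib.CharTriple.FongCore Cfsg.Agent.Lib.CharDeep.GallagherExt
open Cfsg.Agent.Lib.KO.Core Cfsg.Agent.Lib.KO.CentralExt Cfsg.Agent.Lib.KO.Transfer
open Cfsg.Agent.Lib.Core.Basic
open scoped ComplexConjugate

universe u

variable {G : Type u} [Group G] {K : Subgroup G} {hK : K.Normal} {d : ℕ}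
  {X : Representation ℂ K (Fin d → ℂ)}

/-- The character of `opH`. -/
noncomputable def nu (hK : K.Normal) (X : Representation ℂ K (Fin d → ℂ)) (a : Hat hK X) : ℂ :=
  LinearMap.trace ℂ _ (opH hK X a)

theorem isCharacter_nu [Finite G] : IsCharacter (Hat hK X) (nu hK X) :=
  isCharacter_of_rep (V := Fin d → ℂ) (opH hK X)

theorem nu_one : nu hK X 1 = (d : ℂ) := by
  unfold nu
  rw [map_one]
  show LinearMap.trace ℂ (Fin d → ℂ) LinearMap.id = _
  simp

theorem isIrr_nu [Finite G] (hX : X.IsIrreducible)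
    (hinv : ∀ g : G, conjOn hK g X.character = X.character) :
    IsIrrCharacter (NHat hK X) (fun n : NHat hK X => nu hK X n) := by
  classical
  haveI := finite_Hat (hN := hK) hX
  letI : Fintype (NHat hK X) := Fintype.ofFinite _
  have hsurj := pH_surjective hX hinv
  let q : NHat hK X →* K := (pH hK X).subgroupComap K
  have hq : Function.Surjective q :=
    MonoidHom.subgroupComap_surjective_of_surjective (pH hK X) K hsurj
  have h1 : IsIrrCharacter (NHat hK X) (X.character ∘ q) :=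
    isIrrCharacter_comp q hq ⟨d, X, hX, rfl⟩
  have h2 := Cfsg.Agent.Lib.CharZeros.Gallagher.isIrrCharacter_mul_linear
    (Cfsg.Agent.Lib.CharDeep.LinearChar.isCharacter_of_hom (kap hK X hX)) (by simp) h1
  convert h2 using 1
  funext n
  exact trace_opH_of_mem hK X hX n

theorem exists_nu_ne [Finite G] (hX : X.IsIrreducible)
    (hinv : ∀ g : G, conjOn hK g X.character = X.character) (a : Hat hK X) :
    ∃ n : NHat hK X, nu hK X ((n : Hat hK X) * a) ≠ 0 := by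
  classical
  haveI := finite_Hat (hN := hK) hX
  letI : Fintype (Hat hK X) := Fintype.ofFinite _
  letI : Fintype (NHat hK X) := Fintype.ofFinite _
  have h1 := eta_self_eq_one (NHat hK X) (isCharacter_nu (hK := hK) (X := X)) (isIrr_nu hX hinv) a
  by_contra hne
  push Not at hne
  unfold eta at h1
  simp only [hne, zero_mul, Finset.sum_const_zero, mul_zero] at h1
  exact zero_ne_one h1

/-- The equivalence of `Hat` with the preimage of `⊤`. -/
noncomputable def jTop (hK : K.Normal) (X : Representation ℂ K (Fin d → ℂ)) :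
    Hat hK X ≃* GHat (⊤ : Subgroup G) hK X :=
  (Subgroup.topEquiv.symm).trans (MulEquiv.subgroupCongr (by
    ext x
    simp [GHat]))

theorem jTop_coe (a : Hat hK X) : ((jTop hK X a : GHat (⊤ : Subgroup G) hK X) : Hat hK X) = a := rfl

/-- Characters of `G` over `θ` give characters of `Hat`. -/
theorem hat_tau [Fintype G] [Fintype K] (hX : X.IsIrreducible)
    (hinv : ∀ g : G, conjOn hK g X.character = X.character) {χ : G → ℂ} (hχ : IsIrrCharacter G χ)
    (hne : classInner (fun k : K => χ k) X.character ≠ 0) :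
    ∃ τ : Hat hK X → ℂ, IsIrrCharacter _ τ ∧
      (∀ n : NHat hK X, τ n = (((kap hK X hX n)⁻¹ : ℂˣ) : ℂ) * τ 1) ∧
      ∀ a : Hat hK X, χ (pH hK X a) = τ a * nu hK X a := by
  classical
  have hres := restrict_of_invariant hχ ⟨d, X, hX, rfl⟩ hinv hne
  let i : (⊤ : Subgroup G) ≃* G := Subgroup.topEquiv
  have hχ' : IsIrrCharacter (⊤ : Subgroup G) (χ ∘ i) := isIrrCharacter_comp_mulEquiv i hχ
  have hKtop : K ≤ ⊤ := le_top
  obtain ⟨τ₀, hτ₀, hval₀, he₀⟩ := exists_above (A := ⊤) hKtop hX hinv hχ' hne hres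
  let j := jTop hK X
  let τ : Hat hK X → ℂ := τ₀ ∘ j
  have hτ : IsIrrCharacter _ τ := isIrrCharacter_comp_mulEquiv j hτ₀
  have hj1 : j 1 = 1 := map_one j
  refine ⟨τ, hτ, ?_, fun a => he₀ (j a)⟩
  intro n
  have h1 := hval₀ n
  have h2 : (⟨(n : Hat hK X), hKtop n.2⟩ : GHat (⊤ : Subgroup G) hK X) = j n := rfl
  rw [h2] at h1
  simp only [τ, Function.comp, hj1]
  exact h1

/-- Characters of `Hat` over `kap⁻¹` give characters of `G` over `θ`. -/
theorem hat_chi [Fintype G] [Fintype K] (hX : X.IsIrreducible)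
    (hinv : ∀ g : G, conjOn hK g X.character = X.character) {τ : Hat hK X → ℂ}
    (hτ : IsIrrCharacter _ τ)
    (hval : ∀ n : NHat hK X, τ n = (((kap hK X hX n)⁻¹ : ℂˣ) : ℂ) * τ 1) :
    ∃ χ : G → ℂ, IsIrrCharacter G χ ∧ classInner (fun k : K => χ k) X.character ≠ 0 ∧
      ∀ a : Hat hK X, χ (pH hK X a) = τ a * nu hK X a := by
  classical
  have hsurj := pH_surjective hX hinv
  let j := jTop hK X
  let τ₀ : GHat (⊤ : Subgroup G) hK X → ℂ := τ ∘ j.symm
  have hτ₀ : IsIrrCharacter _ τ₀ := isIrrCharacter_comp_mulEquiv j.symm hτ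
  have hj1 : j.symm 1 = 1 := map_one j.symm
  have hKtop : K ≤ ⊤ := le_top
  have hval₀ : ∀ n : NHat hK X, τ₀ ⟨n, hKtop n.2⟩ = (((kap hK X hX n)⁻¹ : ℂˣ) : ℂ) * τ₀ 1 := by
    intro n
    simp only [τ₀, Function.comp, hj1]
    exact hval n
  obtain ⟨χ₀, hχ₀, he⟩ := exists_descend' hKtop hX hinv hτ₀ hval₀
  let i : G ≃* (⊤ : Subgroup G) := Subgroup.topEquiv.symm
  have hχ : IsIrrCharacter G (χ₀ ∘ i) := isIrrCharacter_comp_mulEquiv i hχ₀
  have hea : ∀ a : Hat hK X, (χ₀ ∘ i) (pH hK X a) = τ a * nu hK X a := by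
    intro a
    have h1 := he (j a)
    have h2 : τ₀ (j a) = τ a := by
      simp only [τ₀, Function.comp, MulEquiv.symm_apply_apply]
    rw [h2] at h1
    exact h1
  refine ⟨χ₀ ∘ i, hχ, ?_, hea⟩
  -- the restriction to `K`
  have hres : (fun k : K => (χ₀ ∘ i) k) = τ 1 • X.character := by
    funext k
    obtain ⟨n, hn⟩ := hsurj k
    have hnN : n ∈ NHat hK X := by
      show pH hK X n ∈ K
      rw [hn]
      exact k.2
    have h1 := hea n
    rw [hn] at h1
    rw [h1, hval ⟨n, hnN⟩]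
    have h2 := trace_opH_of_mem hK X hX ⟨n, hnN⟩
    have h3 : nu hK X n = ((kap hK X hX ⟨n, hnN⟩ : ℂˣ) : ℂ) * X.character ⟨pH hK X n, hnN⟩ := h2
    have h4 : (⟨pH hK X n, hnN⟩ : K) = k := Subtype.ext hn
    rw [h3, h4, Pi.smul_apply, smul_eq_mul, Units.val_inv_eq_inv_val]
    have h5 : ((kap hK X hX ⟨n, hnN⟩ : ℂˣ) : ℂ) ≠ 0 := Units.ne_zero _
    field_simp
  rw [hres, classInner_smul_left, classInner_self_of_isIrr ⟨d, X, hX, rfl⟩, mul_one]
  exact irr_one_ne_zero hτ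

/-- Uniqueness of the character of `Hat`. -/
theorem hat_uniq [Finite G] (hX : X.IsIrreducible)
    (hinv : ∀ g : G, conjOn hK g X.character = X.character) {τ₁ τ₂ : Hat hK X → ℂ}
    (hτ₁ : IsIrrCharacter _ τ₁) (hτ₂ : IsIrrCharacter _ τ₂)
    (h₁ : ∀ (n : NHat hK X) (g : Hat hK X), τ₁ ((n : Hat hK X) * g) = (((kap hK X hX n)⁻¹ : ℂˣ) : ℂ) * τ₁ g)
    (h₂ : ∀ (n : NHat hK X) (g : Hat hK X), τ₂ ((n : Hat hK X) * g) = (((kap hK X hX n)⁻¹ : ℂˣ) : ℂ) * τ₂ g)
    (he : ∀ a, τ₁ a * nu hK X a = τ₂ a * nu hK X a) : τ₁ = τ₂ := by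
  classical
  haveI := finite_Hat (hN := hK) hX
  letI : Fintype (Hat hK X) := Fintype.ofFinite _
  letI : Fintype (NHat hK X) := Fintype.ofFinite _
  by_contra hne
  have h0 := classInner_eq_zero_of_isIrr_of_ne hτ₁ hτ₂ hne
  have hβ : LeftInv (NHat hK X) (fun g => τ₁ g * conj (τ₂ g)) := by
    intro n g
    simp only
    rw [h₁, h₂, map_mul]
    have hn := norm_kap hK X hX n
    set c : ℂ := (((kap hK X hX n)⁻¹ : ℂˣ) : ℂ) with hc
    have hcc : c * conj c = 1 := by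
      rw [Complex.mul_conj, Complex.normSq_eq_norm_sq, hc, Units.val_inv_eq_inv_val, norm_inv, hn]
      simp
    calc c * τ₁ g * (conj c * conj (τ₂ g)) = (c * conj c) * (τ₁ g * conj (τ₂ g)) := by ring
      _ = _ := by rw [hcc, one_mul]
  have hβ' : LeftInv (NHat hK X) (fun _ => (1 : ℂ)) := fun _ _ => rfl
  have h1 := classInner_mul_mul (NHat hK X) (isCharacter_nu (hK := hK) (X := X))
    (isIrr_nu hX hinv) hβ hβ'
  have h2 : classInner (fun g => τ₁ g * conj (τ₂ g)) (fun _ => (1 : ℂ)) = classInner τ₁ τ₂ := by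
    simp [classInner_def]
  rw [h2, h0] at h1
  have h3 : classInner (fun a => τ₂ a * nu hK X a) (fun a => τ₂ a * nu hK X a) = 0 := by
    rw [← h1, classInner_def, classInner_def]
    congr 1
    refine Finset.sum_congr rfl fun g _ => ?_
    simp only [Pi.mul_apply, map_mul, mul_one]
    have h4 : τ₁ g * nu hK X g = τ₂ g * nu hK X g := he g
    calc τ₂ g * nu hK X g * (conj (τ₂ g) * conj (nu hK X g))
        = (τ₂ g * nu hK X g) * conj (τ₂ g) * conj (nu hK X g) := by ring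
      _ = (τ₁ g * nu hK X g) * conj (τ₂ g) * conj (nu hK X g) := by rw [h4]
      _ = _ := by ring
  rw [classInner_self_eq_zero_iff] at h3
  have h4 := congrFun h3 1
  simp only [nu_one, Pi.zero_apply] at h4
  have hd : (d : ℂ) ≠ 0 := Nat.cast_ne_zero.mpr (d_pos hX).ne'
  exact (mul_ne_zero (irr_one_ne_zero hτ₂) hd) h4

/-- The kernel of `kap`, in `Hat`. -/
noncomputable def K0 (hX : X.IsIrreducible) : Subgroup (Hat hK X) :=
  (kap hK X hX).ker.map (NHat hK X).subtype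

theorem K0_le (hX : X.IsIrreducible) : K0 (hK := hK) hX ≤ NHat hK X := Subgroup.map_subtype_le _

theorem mem_K0 (hX : X.IsIrreducible) (n : NHat hK X) :
    (n : Hat hK X) ∈ K0 (hK := hK) hX ↔ kap hK X hX n = 1 := by
  constructor
  · rintro ⟨n', hn', he'⟩
    have : n' = n := Subtype.ext he'
    rw [← this]
    exact hn'
  · intro h
    exact ⟨n, h, rfl⟩

theorem K0_normal (hX : X.IsIrreducible) : (K0 (hK := hK) hX).Normal := by
  constructor
  intro k hk h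
  have hkN : k ∈ NHat hK X := K0_le hX hk
  have h3 := (mem_K0 hX ⟨k, hkN⟩).mp hk
  have h2 := kap_conj (hN := hK) hX h ⟨k, hkN⟩
  have hm : h * k * h⁻¹ ∈ NHat hK X :=
    (inferInstance : (NHat hK X).Normal).conj_mem k hkN h
  exact (mem_K0 hX ⟨h * k * h⁻¹, hm⟩).mpr (by rw [← h3, ← h2])

section Main

variable (hX : X.IsIrreducible) [hK0 : (K0 (hK := hK) hX).Normal]

/-- The map to `G/K`. -/
noncomputable def gb (hK : K.Normal) : Hat hK X ⧸ K0 (hK := hK) hX →* G ⧸ K :=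
  haveI := hK
  QuotientGroup.lift (K0 (hK := hK) hX) ((QuotientGroup.mk' K).comp (pH hK X)) (by
    intro x hx
    show ((pH hK X x : G) : G ⧸ K) = 1
    rw [QuotientGroup.eq_one_iff]
    exact K0_le hX hx)

theorem gb_mk (a : Hat hK X) :
    gb hX hK (a : Hat hK X ⧸ K0 (hK := hK) hX) = @QuotientGroup.mk' _ _ K hK (pH hK X a) := rfl

theorem gb_eq_one_iff (a : Hat hK X) :
    gb hX hK (a : Hat hK X ⧸ K0 (hK := hK) hX) = 1 ↔ a ∈ NHat hK X := by
  haveI := hK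
  rw [gb_mk]
  exact QuotientGroup.eq_one_iff _

theorem gb_surjective (hinv : ∀ g : G, conjOn hK g X.character = X.character) [Finite K] :
    Function.Surjective (gb hX hK) := by
  haveI := hK
  intro y
  obtain ⟨g, rfl⟩ := QuotientGroup.mk_surjective y
  obtain ⟨a, rfl⟩ := pH_surjective hX hinv g
  exact ⟨(a : Hat hK X ⧸ K0 (hK := hK) hX), rfl⟩

theorem gb_central (z : Hat hK X ⧸ K0 (hK := hK) hX) (hz : z ∈ (gb hX hK).ker)
    (w : Hat hK X ⧸ K0 (hK := hK) hX) : z * w = w * z := by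
  obtain ⟨n, rfl⟩ := QuotientGroup.mk_surjective z
  obtain ⟨w, rfl⟩ := QuotientGroup.mk_surjective w
  have hn : n ∈ NHat hK X := (gb_eq_one_iff hX n).mp hz
  rw [← QuotientGroup.mk_mul, ← QuotientGroup.mk_mul]
  have hc : n⁻¹ * (w⁻¹ * n * w) ∈ NHat hK X := by
    refine (NHat hK X).mul_mem ((NHat hK X).inv_mem hn) ?_
    have := (inferInstance : (NHat hK X).Normal).conj_mem n hn w⁻¹
    simpa using this
  have hval1 : kap hK X hX ⟨n⁻¹ * (w⁻¹ * n * w), hc⟩ = 1 := by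
    have h2 : (⟨n⁻¹ * (w⁻¹ * n * w), hc⟩ : NHat hK X) = (⟨n, hn⟩ : NHat hK X)⁻¹ *
        ⟨w⁻¹ * (⟨n, hn⟩ : NHat hK X) * (w⁻¹)⁻¹,
          (inferInstance : (NHat hK X).Normal).conj_mem _ hn w⁻¹⟩ := by
      apply Subtype.ext
      simp
    rw [h2, map_mul, kap_conj, map_inv, inv_mul_cancel]
  have h3 := (mem_K0 hX ⟨n⁻¹ * (w⁻¹ * n * w), hc⟩).mpr hval1
  have h4 : (w * n)⁻¹ * (n * w) = n⁻¹ * (w⁻¹ * n * w) := by group
  have h5 : (w * n)⁻¹ * (n * w) ∈ K0 (hK := hK) hX := by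
    rw [h4]
    exact h3
  exact (QuotientGroup.eq.mpr h5).symm

theorem gb_expo [Finite G] {p : ℕ} (hp : p.Prime) (hKp : ¬ p ∣ Nat.card K) (hpd : ¬ p ∣ d) :
    ∃ e : ℕ, ¬ p ∣ e ∧ ∀ z ∈ (gb hX hK).ker, z ^ e = 1 := by
  haveI := finite_Hat (hN := hK) hX
  refine ⟨Nat.card K * Nat.card (pH hK X).ker, ?_, ?_⟩
  · intro h
    rcases (Nat.Prime.dvd_mul hp).mp h with h | h
    · exact hKp h
    · exact not_dvd_card_ker hX hp hpd h
  · intro z hz
    obtain ⟨a, rfl⟩ := QuotientGroup.mk_surjective z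
    have ha : a ∈ NHat hK X := (gb_eq_one_iff hX a).mp hz
    have h1 : (pH hK X a) ^ Nat.card K = 1 := by
      have h2 := pow_card_eq_one' (x := (⟨pH hK X a, ha⟩ : K))
      exact congrArg Subtype.val h2
    have h2 : a ^ Nat.card K ∈ (pH hK X).ker := by
      rw [MonoidHom.mem_ker, map_pow, h1]
    have h3 := pow_card_eq_one' (x := (⟨a ^ Nat.card K, h2⟩ : (pH hK X).ker))
    have h4 : (a ^ Nat.card K) ^ Nat.card (pH hK X).ker = 1 := congrArg Subtype.val h3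
    rw [← QuotientGroup.mk_pow, pow_mul, h4, QuotientGroup.mk_one]

end Main

/-- **The invariant case.** -/
theorem invariant_case {G : Type u} [Group G] [Fintype G] [Fintype (IrrCharacter G)] {p : ℕ}
    [hpf : Fact p.Prime] (K : Subgroup G) [hK : K.Normal] [Fintype K] (hKp : ¬ p ∣ Nat.card K)
    (hCG : Subgroup.centralizer (pCore p (G ⧸ K) : Set (G ⧸ K)) ≤ pCore p (G ⧸ K))
    (θ : IrrCharacter K) (hinv : ∀ g : G, conjOn hK g (θ : K → ℂ) = (θ : K → ℂ))
    {U V : Set (IrrCharacter G)}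
    (hU : ∀ χ ∈ U, classInner (fun k : K => (χ : G → ℂ) k) (θ : K → ℂ) ≠ 0)
    (hV : ∀ χ ∈ V, classInner (fun k : K => (χ : G → ℂ) k) (θ : K → ℂ) ≠ 0)
    (hcov : ∀ χ : IrrCharacter G,
      classInner (fun k : K => (χ : G → ℂ) k) (θ : K → ℂ) ≠ 0 → χ ∈ U ∨ χ ∈ V)
    (hdisj : ∀ χ, χ ∈ U → χ ∉ V)
    (hUs : ∀ x, p ∣ orderOf x → fS U x = 0) (hVs : ∀ x, p ∣ orderOf x → fS V x = 0) :
    U = ∅ ∨ V = ∅ := by
  classical
  have hp : p.Prime := hpf.out
  obtain ⟨d, X, hX, hXe⟩ := θ.2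
  have hθ : (θ : K → ℂ) = X.character := hXe.symm
  rw [hθ] at hU hV hcov hinv
  haveI := finite_Hat (hN := hK) hX
  have hsurj := pH_surjective hX hinv
  have hdK : d ∣ Nat.card K := by
    haveI : X.IsIrreducible := hX
    have h1 := Cfsg.Agent.Lib.Char.Central.finrank_dvd_card (ρ := X)
    rwa [Module.finrank_fin_fun] at h1
  have hpd : ¬ p ∣ d := fun h => hKp (h.trans hdK)
  have hd : (d : ℂ) ≠ 0 := Nat.cast_ne_zero.mpr (d_pos hX).ne'
  haveI hK0 : (K0 (hK := hK) hX).Normal := K0_normal hX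
  let Γ := Hat hK X ⧸ K0 (hK := hK) hX
  let π₁ : Hat hK X →* Γ := QuotientGroup.mk' (K0 (hK := hK) hX)
  have hπ₁ : Function.Surjective π₁ := QuotientGroup.mk'_surjective _
  letI : Fintype Γ := Fintype.ofFinite _
  haveI : Finite (IrrCharacter Γ) := finite_irrCharacter
  letI : Fintype (IrrCharacter Γ) := Fintype.ofFinite _
  let ϖ : Γ →* G ⧸ K := gb hX hK
  have hϖ : Function.Surjective ϖ := gb_surjective hX hinv
  have hker : ∀ a : Hat hK X, π₁ a ∈ ϖ.ker ↔ a ∈ NHat hK X := fun a => gb_eq_one_iff hX a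
  have hcen : ∀ z ∈ ϖ.ker, ∀ x : Γ, z * x = x * z := fun z hz x => gb_central hX z hz x
  obtain ⟨e, he, hez⟩ := gb_expo hX hp hKp hpd
  -- the function on the kernel
  let sec : Γ → Hat hK X := Function.surjInv hπ₁
  have hsec : ∀ z, π₁ (sec z) = z := Function.surjInv_eq hπ₁
  let κ' : Hat hK X → ℂ := fun a => if h : a ∈ NHat hK X then (((kap hK X hX ⟨a, h⟩)⁻¹ : ℂˣ) : ℂ) else 1
  have hκ' : ∀ n : NHat hK X, κ' n = (((kap hK X hX n)⁻¹ : ℂˣ) : ℂ) := fun n => dif_pos n.2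
  have hκ'0 : ∀ n ∈ NHat hK X, κ' n ≠ 0 := fun n hn => by
    rw [hκ' ⟨n, hn⟩]
    exact Units.ne_zero _
  have hκ'n : ∀ n ∈ NHat hK X, ‖κ' n‖ = 1 := fun n hn => by
    rw [hκ' ⟨n, hn⟩, Units.val_inv_eq_inv_val, norm_inv, norm_kap hK X hX, inv_one]
  -- well-definedness
  have hκ'eq : ∀ n ∈ NHat hK X, ∀ m ∈ NHat hK X, π₁ n = π₁ m → κ' n = κ' m := by
    intro n hn m hm h
    have h1 : n⁻¹ * m ∈ K0 (hK := hK) hX := QuotientGroup.eq.mp h
    have h2 := (mem_K0 hX (⟨n, hn⟩⁻¹ * ⟨m, hm⟩)).mp h1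
    rw [map_mul, map_inv, inv_mul_eq_one] at h2
    rw [hκ' ⟨n, hn⟩, hκ' ⟨m, hm⟩, h2]
  let μ : Γ → ℂ := fun z => κ' (sec z)
  have hμ : ∀ n ∈ NHat hK X, μ (π₁ n) = κ' n := by
    intro n hn
    have h1 : sec (π₁ n) ∈ NHat hK X := by
      rw [← hker, hsec, hker]
      exact hn
    exact hκ'eq _ h1 _ hn (hsec _)
  let T : Set (IrrCharacter Γ) := {τ | ∀ n ∈ NHat hK X, (τ : Γ → ℂ) (π₁ n) = κ' n * (τ : Γ → ℂ) 1}
  have hTdef : ∀ τ : IrrCharacter Γ, τ ∈ T ↔ ∀ z ∈ ϖ.ker, (τ : Γ → ℂ) z = μ z * (τ : Γ → ℂ) 1 := by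
    intro τ
    constructor
    · intro h z hz
      have h1 : sec z ∈ NHat hK X := by
        rw [← hker, hsec]
        exact hz
      have h2 := h _ h1
      rw [hsec] at h2
      exact h2
    · intro h n hn
      have h1 := h (π₁ n) ((hker n).mpr hn)
      rw [hμ n hn] at h1
      exact h1
  have hμnorm : ∀ z ∈ ϖ.ker, ‖μ z‖ = 1 := by
    intro z hz
    apply hκ'n
    rw [← hker, hsec]
    exact hz
  have hTmul : ∀ τ ∈ T, ∀ n ∈ NHat hK X, ∀ a, (τ : Γ → ℂ) (π₁ (n * a)) = κ' n * (τ : Γ → ℂ) (π₁ a) := by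
    intro τ hτ n hn a
    rw [map_mul]
    exact irr_central_mul τ.2 (hcen _ ((hker n).mpr hn)) (hτ n hn) _
  let S : Set (IrrCharacter G) := {χ | classInner (fun k : K => (χ : G → ℂ) k) X.character ≠ 0}
  refine transfer (pH hK X) hsurj π₁ hπ₁ (nu hK X) (d := (d : ℂ)) nu_one hd S T ?_ ?_ ?_
    (NHat hK X : Set (Hat hK X)) κ' hκ'0 hTmul ?_ ?_ ?_ hU hV hcov hdisj hUs hVs
  · -- characters of `G` to characters of `Γ`
    intro χ hχ
    obtain ⟨τ, hτ, hval, he'⟩ := hat_tau hX hinv χ.2 hχ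
    have hπker : ∀ k ∈ π₁.ker, τ k = τ 1 := by
      intro k hk
      have hk' : k ∈ K0 (hK := hK) hX := (QuotientGroup.eq_one_iff k).mp hk
      have h1 := hval ⟨k, K0_le hX hk'⟩
      rw [(mem_K0 hX ⟨k, K0_le hX hk'⟩).mp hk'] at h1
      simpa using h1
    obtain ⟨τ', hτ', hτe⟩ := Cfsg.Agent.Lib.Char.Linear.isIrrCharacter_descend π₁ hπ₁ hτ hπker
    refine ⟨⟨τ', hτ'⟩, ?_, ?_⟩
    · intro n hn
      have h1 := hval ⟨n, hn⟩
      have h2 : τ n = τ' (π₁ n) := congrFun hτe n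
      have h3 : τ 1 = τ' 1 := by
        have := congrFun hτe 1
        simpa using this
      rw [hκ' ⟨n, hn⟩]
      show τ' (π₁ n) = _ * τ' 1
      rw [← h2, ← h3]
      exact h1
    · intro a
      have h2 : τ a = τ' (π₁ a) := congrFun hτe a
      rw [he' a, h2]
  · -- characters of `Γ` to characters of `G`
    intro τ hτ
    have hτ1 : IsIrrCharacter _ ((τ : Γ → ℂ) ∘ π₁) :=
      Cfsg.Agent.Lib.Char.Linear.isIrrCharacter_comp π₁ hπ₁ τ.2
    have hval : ∀ n : NHat hK X, ((τ : Γ → ℂ) ∘ π₁) n =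
        (((kap hK X hX n)⁻¹ : ℂˣ) : ℂ) * ((τ : Γ → ℂ) ∘ π₁) 1 := by
      intro n
      have h1 := hτ n n.2
      rw [hκ' n] at h1
      simpa using h1
    obtain ⟨χ, hχ, hχne, he'⟩ := hat_chi hX hinv hτ1 hval
    exact ⟨⟨χ, hχ⟩, hχne, he'⟩
  · -- uniqueness
    intro τ₁ hτ₁ τ₂ hτ₂ h
    have h1 : ∀ τ ∈ T, ∀ (n : NHat hK X) (g : Hat hK X), ((τ : Γ → ℂ) ∘ π₁) ((n : Hat hK X) * g) =
        (((kap hK X hX n)⁻¹ : ℂˣ) : ℂ) * ((τ : Γ → ℂ) ∘ π₁) g := by
      intro τ hτ n g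
      have h2 := hTmul τ hτ n n.2 g
      rw [hκ' n] at h2
      exact h2
    have h3 := hat_uniq hX hinv
      (Cfsg.Agent.Lib.Char.Linear.isIrrCharacter_comp π₁ hπ₁ τ₁.2)
      (Cfsg.Agent.Lib.Char.Linear.isIrrCharacter_comp π₁ hπ₁ τ₂.2)
      (h1 τ₁ hτ₁) (h1 τ₂ hτ₂) h
    apply Subtype.ext
    funext x
    obtain ⟨a, rfl⟩ := hπ₁ x
    exact congrFun h3 a
  · -- non-vanishing
    intro a
    obtain ⟨n, hn⟩ := exists_nu_ne hX hinv a
    exact ⟨n, n.2, hn⟩
  · -- singular elements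
    intro a ha n hn
    by_contra hno
    set m := orderOf (pH hK X (n * a)) with hm
    have h1 : (π₁ a) ^ m ∈ ϖ.ker := by
      rw [← map_pow, hker]
      show pH hK X (a ^ m) ∈ K
      have h2 : (pH hK X (n * a)) ^ m = 1 := by
        rw [hm]
        exact pow_orderOf_eq_one _
      have h3 : pH hK X a = (pH hK X n)⁻¹ * pH hK X (n * a) := by
        rw [map_mul]
        group
      rw [map_pow, ← QuotientGroup.eq_one_iff, QuotientGroup.mk_pow, h3, QuotientGroup.mk_mul,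
        QuotientGroup.mk_inv, (QuotientGroup.eq_one_iff _).mpr (show pH hK X n ∈ K from hn), inv_one,
        one_mul, ← QuotientGroup.mk_pow, h2, QuotientGroup.mk_one]
    have h2 := hez _ h1
    rw [← pow_mul] at h2
    have h3 := ha.trans (orderOf_dvd_of_pow_eq_one h2)
    rcases (Nat.Prime.dvd_mul hp).mp h3 with h4 | h4
    · exact hno h4
    · exact he h4
  · -- the core
    intro U' V' hU' hV' hc' hd' hUs' hVs'
    exact core_central ϖ hϖ hcen hCG μ hμnorm T hTdef hU' hV' hc' hd' hUs' hVs'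

end Cfsg.Agent.Lib.KO.HatCase
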