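import Mathlib
import Cfsg.Agent.Lib.KO.HatCase
import Cfsg.Agent.Lib.Blocks.FR2
import Cfsg.Agent.Lib.BlockT.NormalP
import Cfsg.Agent.Lib.Core.PSolvable

/-!
# Reductions: the weighted sums against the idempotent of a character of a normal subgroup
-/

set_option autoImplicit false
set_option linter.unusedSectionVars false
set_option linter.style.haveILetI false

namespace Cfsg.Agent.Lib.KO.Reduce

open Cfsg Module MonoidAlgebra
open Cfsg.Agent.Lib.Char.Basic Cfsg.Agent.Lib.Char.Ortho Cfsg.Agent.Lib.Char.Complete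
open Cfsg.Agent.Lib.Char.Conj Cfsg.Agent.Lib.Char.Induced Cfsg.Agent.Lib.Char.CliffordCorr
open Cfsg.Agent.Lib.Blocks.Local Cfsg.Agent.Lib.Blocks.Central Cfsg.Agent.Lib.Blocks.Heights
open Cfsg.Agent.Lib.Blocks.FR Cfsg.Agent.Lib.Blocks.FR2 Cfsg.Agent.Lib.Blocks.Induced
open Cfsg.Agent.Lib.BlockT.Normal Cfsg.Agent.Lib.BlockT.NormalP Cfsg.Agent.Lib.BlockH.StabBlock
open Cfsg.Agent.Lib.KO.Core Cfsg.Agent.Lib.KO.CentralExt Cfsg.Agent.Lib.KO.HatCase
open Cfsg.Agent.Lib.CharTriple.FongCore
open scoped Classical ComplexConjugate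

universe u

variable {G : Type u} [Group G] [Fintype G]

/-- Multiplying by an element of a normal `p'`-subgroup keeps an element `p`-singular. -/
theorem singular_mul {p : ℕ} (hp : p.Prime) (K : Subgroup G) [hK : K.Normal] (hKp : ¬ p ∣ Nat.card K)
    {x k : G} (hk : k ∈ K) (hx : p ∣ orderOf x) : p ∣ orderOf (k * x) := by
  by_contra hno
  set m := orderOf (k * x) with hm
  have h1 : x ^ m ∈ K := by
    have h2 : (k * x) ^ m = 1 := by
      rw [hm]
      exact pow_orderOf_eq_one _
    rw [← QuotientGroup.eq_one_iff, QuotientGroup.mk_pow]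
    have h3 : ((k * x : G) : G ⧸ K) = (x : G ⧸ K) := by
      rw [QuotientGroup.mk_mul, (QuotientGroup.eq_one_iff k).mpr hk, one_mul]
    rw [← h3, ← QuotientGroup.mk_pow, h2, QuotientGroup.mk_one]
  have h2 := pow_card_eq_one' (x := (⟨x ^ m, h1⟩ : K))
  have h3 : (x ^ m) ^ Nat.card K = 1 := congrArg Subtype.val h2
  rw [← pow_mul] at h3
  have h4 := hx.trans (orderOf_dvd_of_pow_eq_one h3)
  rcases (Nat.Prime.dvd_mul hp).mp h4 with h5 | h5
  · exact hno h5
  · exact hKp h5

/-- Singletons are blocks of a normal `p'`-subgroup. -/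
theorem isPBlock_singleton {p : ℕ} {M : Ideal AlgInt} (hM : IsPModular p M) (K : Subgroup G) [Fintype K]
    [Fintype (IrrCharacter K)] (hKp : ¬ p ∣ Nat.card K) (θ : IrrCharacter K) :
    IsPBlock M ({θ} : Set (IrrCharacter K)) := by
  haveI := isPrime_of_pModular hM
  refine ⟨θ, ?_⟩
  ext θ'
  rw [Set.mem_singleton_iff]
  constructor
  · rintro rfl
    exact fun g => by
      rw [sub_self]
      exact memLocalIdeal_zero
  · intro h
    by_contra hne
    have hloc : idem ({θ} : Set (IrrCharacter K)) ∈ localCenter M K := fun g =>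
      memLocalRing_blockCoeff_of_coprime M hM hKp _ g
    have h3 := omegaHom_sub_mem_of_sameBlock h hloc
    rw [omegaHom_idem, omegaHom_idem, if_pos (Set.mem_singleton θ), if_neg (by simpa using hne), sub_zero] at h3
    exact one_notMemLocalIdeal h3

variable [Fintype (IrrCharacter G)]

/-- The regular character vanishes at nonidentity elements. -/
theorem fS_univ_of_ne_one {x : G} (hx : x ≠ 1) : fS (Set.univ : Set (IrrCharacter G)) x = 0 := by
  have h1 := sum_irr_mul_conj x 1
  rw [if_neg (fun h => hx (isConj_one_right.mp h.symm))] at h1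
  unfold fS
  rw [← h1]
  refine Fintype.sum_congr _ _ fun χ => ?_
  rw [if_pos (Set.mem_univ χ), irr_one_eq χ, Complex.conj_natCast, mul_comm]

theorem fS_compl_singular {p : ℕ} {U : Set (IrrCharacter G)} (hU : ∀ x, p ∣ orderOf x → fS U x = 0)
    (hp : p.Prime) : ∀ x, p ∣ orderOf x → fS Uᶜ x = 0 := by
  intro x hx
  have hx1 : x ≠ 1 := by
    rintro rfl
    rw [orderOf_one] at hx
    exact hp.one_lt.ne' (Nat.dvd_one.mp hx)
  have h1 := fS_univ_of_ne_one hx1
  have h2 := hU x hx
  have h3 : fS Uᶜ x = fS (Set.univ : Set (IrrCharacter G)) x - fS U x := by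
    unfold fS
    rw [← Finset.sum_sub_distrib]
    refine Fintype.sum_congr _ _ fun χ => ?_
    by_cases h : χ ∈ U <;> simp [h]
  rw [h3, h1, h2, sub_zero]

section Invariant

variable (K : Subgroup G) [hK : K.Normal] [Fintype K] [Fintype (IrrCharacter K)] (θ : IrrCharacter K)
  (hinv : ∀ g : G, conjOn hK g (θ : K → ℂ) = (θ : K → ℂ))

include hinv

/-- The idempotent of an invariant character acts on a character of `G`. -/
theorem sum_blockCoeff_irr_mul (χ : IrrCharacter G) (x : G) :
    ∑ k : K, blockCoeff ({θ} : Set (IrrCharacter K)) k * (χ : G → ℂ) ((k : G) * x) =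
      if classInner (fun k : K => (χ : G → ℂ) k) (θ : K → ℂ) ≠ 0 then (χ : G → ℂ) x else 0 := by
  have hb : ∀ g : G, conjIrr hK g θ = θ := fun g => Subtype.ext (hinv g)
  let z : GA G := ofFun (extendByZero K (blockCoeff ({θ} : Set (IrrCharacter K))))
  have hz : IsCentral z := by
    intro g h
    show extendByZero K _ (h * g * h⁻¹) = extendByZero K _ g
    by_cases hg : g ∈ K
    · rw [extendByZero_of_mem K _ hg, extendByZero_of_mem K _ (hK.conj_mem g hg h)]
      have h1 := blockCoeff_conjEquiv hK ({θ} : Set (IrrCharacter K)) h ⟨g, hg⟩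
      have h2 : conjIrr hK h '' ({θ} : Set (IrrCharacter K)) = {θ} := by
        rw [Set.image_singleton, hb]
      rw [h2] at h1
      rw [← h1]
      congr 1
    · have hg' : h * g * h⁻¹ ∉ K := fun h' => hg (by
        have := hK.conj_mem _ h' h⁻¹
        simpa [mul_assoc] using this)
      rw [extendByZero_of_not_mem K _ hg, extendByZero_of_not_mem K _ hg']
  have hs : ∀ F : G → ℂ, ∑ g : G, z.coeff g * F g =
      ∑ k : K, blockCoeff ({θ} : Set (IrrCharacter K)) k * F k := fun F =>
    sum_extendByZero_mul _ F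
  have h1 := sum_central_mul χ.2 hz x
  rw [hs] at h1
  rw [h1]
  have h2 : omega (χ : G → ℂ) z * (χ : G → ℂ) 1 =
      (θ : K → ℂ) 1 * classInner (fun k : K => (χ : G → ℂ) k) (θ : K → ℂ) := by
    rw [omega, lin_apply, hs, div_mul_cancel₀ _ (irr_one_ne_zero χ.2)]
    rw [sum_blockCoeff_fun ({θ} : Set (IrrCharacter K)) (fun k : K => (χ : G → ℂ) k)]
    rw [Finset.sum_eq_single θ]
    · rw [if_pos (Set.mem_singleton θ)]
    · intro ψ _ hψ
      rw [if_neg (by simpa using hψ)]
    · intro hh
      exact absurd (Finset.mem_univ θ) hh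
  split_ifs with hne
  · have h3 := restrict_of_invariant χ.2 θ.2 hinv hne 1
    simp only [Subgroup.coe_one] at h3
    have h4 : omega (χ : G → ℂ) z = 1 := by
      apply mul_right_cancel₀ (irr_one_ne_zero χ.2)
      rw [h2, one_mul, h3]
      ring
    rw [h4, one_mul]
  · push Not at hne
    rw [hne, mul_zero] at h2
    have h4 := (mul_eq_zero.mp h2).resolve_right (irr_one_ne_zero χ.2)
    rw [h4, zero_mul]

/-- The members of `S` over `θ`. -/
def overPart (K : Subgroup G) [Fintype K] (θ : IrrCharacter K) (S : Set (IrrCharacter G)) :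
    Set (IrrCharacter G) :=
  {χ | χ ∈ S ∧ classInner (fun k : K => (χ : G → ℂ) k) (θ : K → ℂ) ≠ 0}

theorem sum_blockCoeff_fS (S : Set (IrrCharacter G)) (x : G) :
    ∑ k : K, blockCoeff ({θ} : Set (IrrCharacter K)) k * fS S ((k : G) * x) = fS (overPart K θ S) x := by
  unfold fS
  simp only [Finset.mul_sum]
  rw [Finset.sum_comm]
  refine Fintype.sum_congr _ _ fun χ => ?_
  by_cases hχ : χ ∈ S
  · simp only [if_pos hχ]
    have h1 := sum_blockCoeff_irr_mul K θ hinv χ x
    have h2 : ∑ k : K, blockCoeff ({θ} : Set (IrrCharacter K)) k *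
        ((χ : G → ℂ) 1 * (χ : G → ℂ) ((k : G) * x)) = (χ : G → ℂ) 1 *
        ∑ k : K, blockCoeff ({θ} : Set (IrrCharacter K)) k * (χ : G → ℂ) ((k : G) * x) := by
      rw [Finset.mul_sum]
      refine Fintype.sum_congr _ _ fun k => ?_
      ring
    rw [h2, h1]
    by_cases hne : classInner (fun k : K => (χ : G → ℂ) k) (θ : K → ℂ) ≠ 0
    · have hm : χ ∈ overPart K θ S := ⟨hχ, hne⟩
      rw [if_pos hne, if_pos hm]
    · have hm : χ ∉ overPart K θ S := fun h => hne h.2
      rw [if_neg hne, if_neg hm, mul_zero]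
  · have hm : χ ∉ overPart K θ S := fun h => hχ h.1
    simp [hχ, hm]

theorem fS_overPart_singular {p : ℕ} (hp : p.Prime) (hKp : ¬ p ∣ Nat.card K) {S : Set (IrrCharacter G)}
    (hS : ∀ x, p ∣ orderOf x → fS S x = 0) : ∀ x, p ∣ orderOf x → fS (overPart K θ S) x = 0 := by
  intro x hx
  rw [← sum_blockCoeff_fS K θ hinv]
  refine Finset.sum_eq_zero fun k _ => ?_
  rw [hS _ (singular_mul hp K hKp k.2 hx), mul_zero]

end Invariant

section Inertia

variable {T : Subgroup G} [Fintype T] [Fintype (IrrCharacter T)] {E : Subalgebra.center ℂ (GA T)}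

/-- The characters of `T` over `E` with induced character in `S`. -/
def indPart (E : Subalgebra.center ℂ (GA T)) (S : Set (IrrCharacter G)) : Set (IrrCharacter T) :=
  {ψ | omegaHom ψ E = 1 ∧ ∃ χ ∈ S, (χ : G → ℂ) = indFun T (ψ : T → ℂ)}

/-- The average against `E` on `T`. -/
theorem sum_E_irr (χ : IrrCharacter G) (y : T) :
    ∑ t : T, (E : GA T).coeff t * (χ : G → ℂ) (((t * y : T)) : G) =
      ∑ ψ : IrrCharacter T, classInner (fun t : T => (χ : G → ℂ) t) (ψ : T → ℂ) *
        (omegaHom ψ E * (ψ : T → ℂ) y) := by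
  have hT : IsClassFunction T (fun t : T => (χ : G → ℂ) t) := fun a b =>
    isClassFunction_of_isIrrCharacter χ.2 _ _
  have h1 := classFunction_eq_sum hT
  have h2 : ∀ t : T, (χ : G → ℂ) t = ∑ ψ : IrrCharacter T,
      classInner (fun t : T => (χ : G → ℂ) t) (ψ : T → ℂ) * (ψ : T → ℂ) t := by
    intro t
    have := congrFun h1 t
    simpa [Finset.sum_apply] using this
  have h5 : ∀ t : T, (E : GA T).coeff t * (χ : G → ℂ) (((t * y : T)) : G) =
      ∑ ψ : IrrCharacter T, classInner (fun t : T => (χ : G → ℂ) t) (ψ : T → ℂ) *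
        ((E : GA T).coeff t * (ψ : T → ℂ) (t * y)) := by
    intro t
    rw [h2 (t * y), Finset.mul_sum]
    refine Fintype.sum_congr _ _ fun ψ => ?_
    ring
  rw [Finset.sum_congr rfl (fun t _ => h5 t), Finset.sum_comm]
  refine Fintype.sum_congr _ _ fun ψ => ?_
  have h3 := sum_central_mul ψ.2 (isCentral_of_mem E) y
  have h4 : omegaHom ψ E = omega (ψ : T → ℂ) (E : GA T) := rfl
  rw [h4, ← h3, Finset.mul_sum]

variable (horth : ∀ x : G, x ∉ T → ∀ ψ : IrrCharacter T, omegaHom ψ E = 1 →
    ∑ t : T, (incl T (E : GA T)).coeff (x * t * x⁻¹) * (ψ : T → ℂ) t = 0)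

include horth

/-- The average of a weighted sum against `E`. -/
theorem sum_E_fS (hEE : E * E = E) (S : Set (IrrCharacter G)) (y : T) :
    ∑ t : T, (E : GA T).coeff t * fS S (((t * y : T)) : G) = (T.index : ℂ) * fS (indPart E S) y := by
  have h1 : ∀ t : T, (E : GA T).coeff t * fS S (((t * y : T)) : G) =
      ∑ χ : IrrCharacter G, if χ ∈ S then (χ : G → ℂ) 1 *
        ((E : GA T).coeff t * (χ : G → ℂ) (((t * y : T)) : G)) else 0 := by
    intro t
    unfold fS
    rw [Finset.mul_sum]
    refine Fintype.sum_congr _ _ fun χ => ?_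
    split_ifs
    · ring
    · simp
  simp only [h1]
  rw [Finset.sum_comm]
  have h2 : ∀ χ : IrrCharacter G, ∑ t : T, (if χ ∈ S then (χ : G → ℂ) 1 *
        ((E : GA T).coeff t * (χ : G → ℂ) (((t * y : T)) : G)) else 0) =
      ∑ ψ : IrrCharacter T, if χ ∈ S then (χ : G → ℂ) 1 *
        (classInner (fun t : T => (χ : G → ℂ) t) (ψ : T → ℂ) * (omegaHom ψ E * (ψ : T → ℂ) y)) else 0 := by
    intro χ
    split_ifs
    · rw [← Finset.mul_sum, ← Finset.mul_sum, sum_E_irr]
    · simp
  simp only [h2]
  rw [Finset.sum_comm]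
  unfold fS
  rw [Finset.mul_sum]
  refine Fintype.sum_congr _ _ fun ψ => ?_
  rcases omegaHom_eq_zero_or_one hEE ψ with h3 | h3
  · have hm : ψ ∉ indPart E S := fun h => by
      rw [h.1] at h3
      exact one_ne_zero h3
    rw [if_neg hm, mul_zero]
    refine Finset.sum_eq_zero fun χ _ => ?_
    rw [h3]
    simp
  · have hirr := isIrr_indFun horth hEE h3
    set χ₀ : IrrCharacter G := ⟨indFun T (ψ : T → ℂ), hirr⟩ with hχ₀
    have hc : ∀ χ : IrrCharacter G, classInner (fun t : T => (χ : G → ℂ) t) (ψ : T → ℂ) =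
        if χ = χ₀ then 1 else 0 := by
      intro χ
      have h4 := classInner_indFun_left T (ψ : T → ℂ) (χ : G → ℂ)
        (isClassFunction_of_isIrrCharacter χ.2)
      rw [← classInner_conj, ← h4]
      split_ifs with h5
      · rw [h5]
        show conj (classInner (indFun T (ψ : T → ℂ)) (indFun T (ψ : T → ℂ))) = 1
        rw [classInner_self_of_isIrr hirr, map_one]
      · rw [classInner_eq_zero_of_isIrr_of_ne hirr χ.2 (fun e => h5 (Subtype.ext e.symm)), map_zero]
    have hiff : ψ ∈ indPart E S ↔ χ₀ ∈ S := by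
      constructor
      · rintro ⟨-, χ, hχ, he⟩
        have : χ = χ₀ := Subtype.ext he
        rwa [← this]
      · exact fun h => ⟨h3, χ₀, h, rfl⟩
    rw [Finset.sum_eq_single χ₀]
    · simp only [hc, if_true, h3, one_mul, hiff]
      split_ifs
      · have h5 : (χ₀ : G → ℂ) 1 = (T.index : ℂ) * (ψ : T → ℂ) 1 := indFun_one T _
        rw [h5]
        ring
      · simp
    · intro χ _ hχ
      rw [hc χ, if_neg hχ]
      simp
    · intro hh
      exact absurd (Finset.mem_univ χ₀) hh

theorem fS_indPart_singular {p : ℕ} (hEE : E * E = E) (hp : p.Prime) {S : Set (IrrCharacter G)}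
    (hS : ∀ x, p ∣ orderOf x → fS S x = 0) {K : Subgroup G} [hK : K.Normal] (hKp : ¬ p ∣ Nat.card K)
    (hsupp : ∀ t : T, (E : GA T).coeff t ≠ 0 → (t : G) ∈ K) :
    ∀ x : T, p ∣ orderOf x → fS (indPart E S) x = 0 := by
  intro x hx
  have h1 := sum_E_fS horth hEE S x
  have h2 : ∑ t : T, (E : GA T).coeff t * fS S (((t * x : T)) : G) = 0 := by
    refine Finset.sum_eq_zero fun t _ => ?_
    by_cases ht : (E : GA T).coeff t = 0
    · rw [ht, zero_mul]
    · have h3 : p ∣ orderOf (x : G) := by
        rw [Subgroup.orderOf_coe]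
        exact hx
      have h4 := singular_mul hp K hKp (hsupp t ht) h3
      rw [Subgroup.coe_mul, hS _ h4, mul_zero]
  rw [h2] at h1
  have h3 := (mul_eq_zero.mp h1.symm).resolve_left (index_ne_zero' T)
  exact h3

end Inertia

/-- **The main induction.** -/
theorem main_aux {p : ℕ} [hpf : Fact p.Prime] {M : Ideal AlgInt} (hM : IsPModular p M) (n : ℕ) :
    ∀ (G : Type u) [Group G] [Fintype G] [Fintype (IrrCharacter G)], Nat.card G ≤ n →
      IsPSolvable p G → ∀ U : Set (IrrCharacter G), (∀ x, p ∣ orderOf x → fS U x = 0) →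
        ∀ χ ∈ U, ∀ ψ : IrrCharacter G, SameBlock M (χ : G → ℂ) (ψ : G → ℂ) → ψ ∈ U := by
  induction n with
  | zero =>
    intro G _ _ _ h
    have := Nat.card_pos (α := G)
    omega
  | succ n ih =>
    intro G _ _ _ hcard hsolv U hU χ hχ ψ hψ
    have hp : p.Prime := hpf.out
    haveI := isPrime_of_pModular hM
    let K : Subgroup G := Cfsg.pPrimeCore p G
    haveI hK : K.Normal := Cfsg.pPrimeCore_normal p G
    letI : Fintype K := Fintype.ofFinite _
    haveI : Finite (IrrCharacter K) := finite_irrCharacter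
    letI : Fintype (IrrCharacter K) := Fintype.ofFinite _
    have hKp : ¬ p ∣ Nat.card K := by
      intro h
      have h1 : (Nat.card K).Coprime p := Cfsg.Agent.Lib.Core.Basic.pPrimeCore_coprime
      exact (Nat.Prime.coprime_iff_not_dvd hp).mp h1.symm h
    obtain ⟨θ, hθ⟩ := exists_constituent (N := K) χ
    have hθψ := constituent_of_sameBlock hK M hM hKp hψ hθ
    by_cases hinv : ∀ g : G, conjOn hK g (θ : K → ℂ) = (θ : K → ℂ)
    · have hCG := Cfsg.Agent.Lib.Core.PSolvable.centralizer_pCore_le_of_isPSolvable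
        (Cfsg.Agent.Lib.Core.PSolvable.isPSolvable_of_surjective (QuotientGroup.mk' K)
          QuotientGroup.mk_surjective hsolv)
        (Cfsg.Agent.Lib.Core.Basic.pPrimeCore_quotient_eq_bot (p := p) (G := G))
      have hU₁ := fS_overPart_singular K θ hinv hp hKp hU
      have hV₁ := fS_overPart_singular K θ hinv hp hKp (fS_compl_singular hU hp)
      have hcases := invariant_case K hKp hCG θ hinv (U := overPart K θ U) (V := overPart K θ Uᶜ)
        (fun _ h => h.2) (fun _ h => h.2) (fun φ hφ => by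
          by_cases hφU : φ ∈ U
          · exact Or.inl ⟨hφU, hφ⟩
          · exact Or.inr ⟨hφU, hφ⟩) (fun φ h1 h2 => h2.1 h1.1) hU₁ hV₁
      rcases hcases with h | h
      · have : χ ∈ overPart K θ U := ⟨hχ, hθ⟩
        rw [h] at this
        exact absurd this (Set.notMem_empty _)
      · by_contra hψU
        have : ψ ∈ overPart K θ Uᶜ := ⟨hψU, hθψ⟩
        rw [h] at this
        exact absurd this (Set.notMem_empty _)
    · let T : Subgroup G := inertia hK (θ : K → ℂ)
      have hNT : K ≤ T := le_inertia hK (isClassFunction_of_isIrrCharacter θ.2)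
      have hTne : T ≠ ⊤ := by
        intro h
        apply hinv
        intro g
        have : g ∈ T := by rw [h]; trivial
        exact this
      have hcardT : Nat.card T ≤ n := by
        have h1 : Nat.card T < Nat.card G := by
          exact Nat.lt_of_le_of_ne (Subgroup.card_le_card_group T) (fun e => hTne (Subgroup.eq_top_of_card_eq T e))
        omega
      letI : Fintype T := Fintype.ofFinite _
      haveI : Finite (IrrCharacter T) := finite_irrCharacter
      letI : Fintype (IrrCharacter T) := Fintype.ofFinite _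
      letI : Fintype (G ⧸ T) := Fintype.ofFinite _
      have hS : IsStab hK ({θ} : Set (IrrCharacter K)) T := by
        intro g
        constructor
        · rintro hg _ rfl
          exact Subtype.ext hg
        · intro hg
          have h1 := hg θ rfl
          exact congrArg Subtype.val h1
      have hb := isPBlock_singleton hM K hKp θ
      set E := eT hK ({θ} : Set (IrrCharacter K)) hS with hE
      have hEE : E * E = E := eT_mul_self hNT hS
      have hEl : E ∈ localCenter M T := eT_mem_localCenter hb hS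
      have horth := horth_eT hb hNT hS
      have hover : ∀ φ : IrrCharacter G, classInner (fun k : K => (φ : G → ℂ) k) (θ : K → ℂ) ≠ 0 →
          ∃ γ : IrrCharacter T, omegaHom γ E = 1 ∧ (φ : G → ℂ) = indFun T (γ : T → ℂ) := by
        intro φ hφ
        apply exists_indFun_eq horth hEE φ
        rw [sum_eT_restrict hNT hS]
        exact (sum_deg_ne_zero_iff (isCharacter_restrict K (isCharacter_of_isIrrCharacter φ.2)) _).mpr
          ⟨θ, rfl, hφ⟩
      obtain ⟨γ₁, hγ₁, he₁⟩ := hover χ hθ
      obtain ⟨γ₂, hγ₂, he₂⟩ := hover ψ hθψ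
      have hsame : SameBlock M (γ₁ : T → ℂ) (γ₂ : T → ℂ) := by
        apply sameBlock_of_ind horth hEl hEE hγ₁ hγ₂
        rw [← he₁, ← he₂]
        exact hψ
      have hsupp : ∀ t : T, (E : GA T).coeff t ≠ 0 → (t : G) ∈ K := by
        intro t ht
        by_contra htK
        apply ht
        have h2 : ((E : GA T)).coeff t = (incl T (E : GA T)).coeff (t : G) := (coeff_incl_coe T _ t).symm
        rw [h2, hE, incl_eT hNT hS, coeff_incl_of_notMem K _ htK]
      have hvan := fS_indPart_singular horth hEE hp hU hKp hsupp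
      have hmem := ih T hcardT (Cfsg.Agent.Lib.Core.PSolvable.isPSolvable_subgroup T hsolv)
        (indPart E U) hvan γ₁ ⟨hγ₁, χ, hχ, he₁⟩ γ₂ hsame
      obtain ⟨-, χ', hχ', he'⟩ := hmem
      have : ψ = χ' := Subtype.ext (he₂.trans he'.symm)
      rwa [this]

end Cfsg.Agent.Lib.KO.Reduce
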